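import Mathlib
import Cfsg.Prelude.Def_KGroupFacts

set_option autoImplicit false
open scoped commutatorElement

namespace Cfsg.Agent.Lib.Helper66

universe u v w

/-- a homomorphism from an abelian group to a free abelian group of finite rank has a
complemented kernel -/
theorem exists_complement_ker {Y : Type*} [CommGroup Y] {ι : Type*} [Finite ι]
    (ψ : Y →* Multiplicative (ι →₀ ℤ)) : ∃ T : Subgroup Y, T ⊓ ψ.ker = ⊥ ∧ T ⊔ ψ.ker = ⊤ := by
  classical
  let ψa : Additive Y →ₗ[ℤ] (ι →₀ ℤ) := (MonoidHom.toAdditiveLeft ψ).toIntLinearMap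
  obtain ⟨n, ⟨b⟩⟩ := Submodule.nonempty_basis_of_pid (Finsupp.basisSingleOne (R := ℤ) (ι := ι))
    (LinearMap.range ψa)
  have hfree : Module.Free ℤ (LinearMap.range ψa) := Module.Free.of_basis b
  obtain ⟨s, hs⟩ := Module.projective_lifting_property ψa.rangeRestrict LinearMap.id
    ψa.surjective_rangeRestrict
  have hs' : ∀ l : LinearMap.range ψa, ψa (s l) = (l : ι →₀ ℤ) := by
    intro l
    have := congrArg (fun f => (f l : ι →₀ ℤ)) hs
    simpa using this
  let s' : Multiplicative (LinearMap.range ψa) →* Y :=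
    AddMonoidHom.toMultiplicativeLeft s.toAddMonoidHom
  have hs'' : ∀ l : Multiplicative (LinearMap.range ψa),
      Multiplicative.toAdd (ψ (s' l)) = ((Multiplicative.toAdd l : LinearMap.range ψa) : ι →₀ ℤ) := by
    intro l
    exact hs' (Multiplicative.toAdd l)
  refine ⟨s'.range, ?_, ?_⟩
  · rw [eq_bot_iff]
    rintro y ⟨⟨l, rfl⟩, hy⟩
    have hy : ψ (s' l) = 1 := MonoidHom.mem_ker.mp hy
    have h1 := hs'' l
    rw [hy] at h1
    have h2 : (Multiplicative.toAdd l : LinearMap.range ψa) = 0 := by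
      apply Subtype.ext
      rw [← h1]; rfl
    have h3 : l = 1 := by
      have : Multiplicative.ofAdd (Multiplicative.toAdd l) = Multiplicative.ofAdd (0 : LinearMap.range ψa) := by
        rw [h2]
      simpa using this
    rw [h3, map_one]
    exact Subgroup.mem_bot.mpr rfl
  · rw [eq_top_iff]
    intro y _
    let l : Multiplicative (LinearMap.range ψa) :=
      Multiplicative.ofAdd (ψa.rangeRestrict (Additive.ofMul y))
    have hl : Multiplicative.toAdd (ψ (s' l)) = Multiplicative.toAdd (ψ y) := by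
      rw [hs'' l]
      rfl
    have hl' : ψ (s' l) = ψ y := hl
    have hy : y = s' l * ((s' l)⁻¹ * y) := by group
    rw [hy]
    apply Subgroup.mul_mem_sup
    · exact ⟨l, rfl⟩
    · rw [MonoidHom.mem_ker, map_mul, map_inv, hl']
      simp

/-- commutators are unchanged by central factors -/
theorem commutatorElement_mul_central {X : Type*} [Group X] {a b z w : X}
    (hz : z ∈ Subgroup.center X) (hw : w ∈ Subgroup.center X) : ⁅a * z, b * w⁆ = ⁅a, b⁆ := by
  have hz' : ∀ g, z * g = g * z := fun g => (Subgroup.mem_center_iff.mp hz g).symm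
  have hw' : ∀ g, w * g = g * w := fun g => (Subgroup.mem_center_iff.mp hw g).symm
  have e1 : a * z * (b * w) = a * b * (z * w) := by
    calc a * z * (b * w) = a * (z * b) * w := by group
      _ = a * (b * z) * w := by rw [hz' b]
      _ = a * b * (z * w) := by group
  have e2 : b * w * (a * z) = b * a * (z * w) := by
    calc b * w * (a * z) = b * (w * a) * z := by group
      _ = b * (a * w) * z := by rw [hw' a]
      _ = b * a * (w * z) := by group
      _ = b * a * (z * w) := by rw [hw' z]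
  have key : ∀ x y : X, ⁅x, y⁆ = (x * y) * (y * x)⁻¹ := by
    intro x y; rw [commutatorElement_def]; group
  rw [key, key, e1, e2]
  group

/-- a homomorphism of central extensions maps `ker ⊓ commutator` onto `ker ⊓ commutator` -/
theorem map_ker_inf_commutator {Q : Type*} {E : Type*} {X : Type*} [Group Q] [Group E] [Group X]
    (π : E →* Q) (ξ : X →* Q) (φ : E →* X) (hφ : ξ.comp φ = π) (hπ : Function.Surjective π)
    (hc : ξ.ker ≤ Subgroup.center X) :
    (π.ker ⊓ commutator E).map φ = ξ.ker ⊓ commutator X := by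
  have hφ' : ∀ e, ξ (φ e) = π e := fun e => by rw [← hφ]; rfl
  apply le_antisymm
  · rintro _ ⟨e, ⟨he1, he2⟩, rfl⟩
    refine ⟨?_, ?_⟩
    · have he1' : π e = 1 := MonoidHom.mem_ker.mp he1
      exact MonoidHom.mem_ker.mpr (by rw [hφ', he1'])
    · have hle : (commutator E).map φ ≤ commutator X := by
        rw [commutator_def, Subgroup.map_commutator, commutator_def]
        exact Subgroup.commutator_mono le_top le_top
      exact hle ⟨e, he2, rfl⟩
  · rintro x ⟨hx1, hx2⟩
    have hx1' : ξ x = 1 := MonoidHom.mem_ker.mp hx1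
    have hcomm : commutator X ≤ (commutator E).map φ := by
      rw [commutator_eq_closure, Subgroup.closure_le]
      rintro _ ⟨a, b, rfl⟩
      obtain ⟨ea, hea⟩ := hπ (ξ a)
      obtain ⟨eb, heb⟩ := hπ (ξ b)
      have hza : (φ ea)⁻¹ * a ∈ Subgroup.center X :=
        hc (MonoidHom.mem_ker.mpr (by rw [map_mul, map_inv, hφ', hea]; simp))
      have hzb : (φ eb)⁻¹ * b ∈ Subgroup.center X :=
        hc (MonoidHom.mem_ker.mpr (by rw [map_mul, map_inv, hφ', heb]; simp))
      have h1 := commutatorElement_mul_central (a := φ ea) (b := φ eb) hza hzb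
      have h2 : φ ea * ((φ ea)⁻¹ * a) = a := by group
      have h3 : φ eb * ((φ eb)⁻¹ * b) = b := by group
      rw [h2, h3] at h1
      rw [SetLike.mem_coe, h1, ← map_commutatorElement]
      refine ⟨⁅ea, eb⁆, ?_, rfl⟩
      rw [commutator_eq_closure]
      exact Subgroup.subset_closure (commutator_mem_commutatorSet _ _)
    obtain ⟨e, he, rfl⟩ := hcomm hx2
    exact ⟨e, ⟨MonoidHom.mem_ker.mpr (by rw [← hφ']; exact hx1'), he⟩, rfl⟩

section hopf

variable (Q : Type u) [Group Q]

/-- the canonical free presentation of `Q` -/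
def freeProj : FreeGroup Q →* Q := FreeGroup.lift id

theorem freeProj_of (q : Q) : freeProj Q (FreeGroup.of q) = q := by
  simp [freeProj]

theorem freeProj_surjective : Function.Surjective (freeProj Q) :=
  fun q => ⟨FreeGroup.of q, freeProj_of Q q⟩

/-- the subgroup `[R, F]` of the free group -/
def relComm : Subgroup (FreeGroup Q) := ⁅(freeProj Q).ker, (⊤ : Subgroup (FreeGroup Q))⁆

instance relComm_normal : (relComm Q).Normal := by
  unfold relComm; infer_instance

theorem relComm_le_ker : relComm Q ≤ (freeProj Q).ker := Subgroup.commutator_le_left _ _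

theorem relComm_le_commutator : relComm Q ≤ commutator (FreeGroup Q) := by
  rw [commutator_def]
  exact Subgroup.commutator_mono le_top le_rfl

/-- the group `F/[R,F]` -/
abbrev HopfE : Type u := FreeGroup Q ⧸ relComm Q

/-- the projection `F/[R,F] → Q` -/
def hopfProj : HopfE Q →* Q := QuotientGroup.lift (relComm Q) (freeProj Q) (relComm_le_ker Q)

theorem hopfProj_mk (f : FreeGroup Q) : hopfProj Q (QuotientGroup.mk f) = freeProj Q f := rfl

theorem hopfProj_surjective : Function.Surjective (hopfProj Q) := by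
  intro q
  obtain ⟨f, hf⟩ := freeProj_surjective Q q
  exact ⟨QuotientGroup.mk f, hf⟩

theorem hopfProj_ker_le_center : (hopfProj Q).ker ≤ Subgroup.center (HopfE Q) := by
  intro e he
  obtain ⟨f, rfl⟩ := QuotientGroup.mk_surjective e
  have hf : f ∈ (freeProj Q).ker := MonoidHom.mem_ker.mpr (MonoidHom.mem_ker.mp he)
  rw [Subgroup.mem_center_iff]
  intro g
  obtain ⟨g, rfl⟩ := QuotientGroup.mk_surjective g
  rw [← QuotientGroup.mk_mul, ← QuotientGroup.mk_mul, QuotientGroup.eq]
  have h1 : (g * f)⁻¹ * (f * g) = ⁅f⁻¹, g⁻¹⁆ := by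
    rw [commutatorElement_def]; group
  rw [h1]
  exact Subgroup.commutator_mem_commutator (Subgroup.inv_mem _ hf) (Subgroup.mem_top _)

/-- every central extension of `Q` receives a homomorphism from `F/[R,F]` over `Q` -/
theorem hopf_lift {X : Type w} [Group X] (ξ : X →* Q) (hξ : Function.Surjective ξ)
    (hc : ξ.ker ≤ Subgroup.center X) : ∃ φ : HopfE Q →* X, ξ.comp φ = hopfProj Q := by
  let φ₀ : FreeGroup Q →* X := FreeGroup.lift (fun q => Function.surjInv hξ q)
  have h₀ : ξ.comp φ₀ = freeProj Q := by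
    ext q
    simp [φ₀, freeProj, Function.surjInv_eq]
  have h₀' : ∀ f, ξ (φ₀ f) = freeProj Q f := fun f => by rw [← h₀]; rfl
  have hk : relComm Q ≤ φ₀.ker := by
    rw [relComm, Subgroup.commutator_le]
    intro r hr f _
    rw [MonoidHom.mem_ker, map_commutatorElement]
    have hr' : φ₀ r ∈ Subgroup.center X :=
      hc (MonoidHom.mem_ker.mpr (by rw [h₀']; exact MonoidHom.mem_ker.mp hr))
    rw [commutatorElement_eq_one_iff_mul_comm]
    exact (Subgroup.mem_center_iff.mp hr' (φ₀ f)).symm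
  refine ⟨QuotientGroup.lift (relComm Q) φ₀ hk, ?_⟩
  refine MonoidHom.ext fun e => ?_
  obtain ⟨f, rfl⟩ := QuotientGroup.mk_surjective e
  exact h₀' f

/-- the Schur multiplier as a subgroup of `F/[R,F]` (Hopf's formula) -/
def hopfM : Subgroup (HopfE Q) := (hopfProj Q).ker ⊓ commutator (HopfE Q)

theorem hopfM_le_ker : hopfM Q ≤ (hopfProj Q).ker := inf_le_left

theorem hopfM_le_commutator : hopfM Q ≤ commutator (HopfE Q) := inf_le_right

/-- **Hopf**: for every central extension `ξ : X → Q`, `ker ξ ⊓ X'` is a homomorphic image of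
the multiplier -/
theorem hopf_surj {X : Type w} [Group X] (ξ : X →* Q) (hξ : Function.Surjective ξ)
    (hc : ξ.ker ≤ Subgroup.center X) :
    ∃ f : hopfM Q →* ↥(ξ.ker ⊓ commutator X), Function.Surjective f := by
  obtain ⟨φ, hφ⟩ := hopf_lift Q ξ hξ hc
  have hmap := map_ker_inf_commutator (hopfProj Q) ξ φ hφ (hopfProj_surjective Q) hc
  have hmem : ∀ m : hopfM Q, φ m ∈ ξ.ker ⊓ commutator X := by
    intro m
    rw [← hmap]
    exact ⟨m, m.2, rfl⟩
  refine ⟨(φ.comp (hopfM Q).subtype).codRestrict _ hmem, ?_⟩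
  rintro ⟨x, hx⟩
  rw [← hmap] at hx
  obtain ⟨e, he, rfl⟩ := hx
  exact ⟨⟨e, he⟩, rfl⟩

/-- the map `F/[R,F] → F^ab` -/
def hopfAb : HopfE Q →* Abelianization (FreeGroup Q) :=
  QuotientGroup.lift (relComm Q) Abelianization.of
    (by rw [Abelianization.ker_of]; exact relComm_le_commutator Q)

theorem map_commutator_le {G H : Type*} [Group G] [Group H] (f : G →* H) :
    (commutator G).map f ≤ commutator H := by
  rw [commutator_def, Subgroup.map_commutator, commutator_def]
  exact Subgroup.commutator_mono le_top le_top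

theorem hopfAb_ker : (hopfAb Q).ker = commutator (HopfE Q) := by
  apply le_antisymm
  · intro e he
    obtain ⟨f, rfl⟩ := QuotientGroup.mk_surjective e
    have hf : f ∈ commutator (FreeGroup Q) := by
      rw [← Abelianization.ker_of]
      exact MonoidHom.mem_ker.mpr (MonoidHom.mem_ker.mp he)
    exact map_commutator_le (QuotientGroup.mk' (relComm Q)) ⟨f, hf, rfl⟩
  · exact Abelianization.commutator_subset_ker _

/-- `F^ab` is free abelian on `Q` -/
noncomputable def abEquiv : Abelianization (FreeGroup Q) ≃* Multiplicative (Q →₀ ℤ) :=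
  AddEquiv.toMultiplicativeRight
    (FreeAbelianGroup.equivFinsupp Q : Additive (Abelianization (FreeGroup Q)) ≃+ (Q →₀ ℤ))

theorem normal_of_le_center {G : Type*} [Group G] (T : Subgroup G) (hT : T ≤ Subgroup.center G) :
    T.Normal := by
  constructor
  intro n hn g
  have h := Subgroup.mem_center_iff.mp (hT hn) g
  have : g * n * g⁻¹ = n := by rw [h]; group
  rw [this]; exact hn

/-- central subgroups of `F/[R,F]` split off their intersection with the commutator subgroup -/
theorem exists_central_complement [Finite Q] (Y : Subgroup (HopfE Q))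
    (hY : Y ≤ Subgroup.center (HopfE Q)) :
    ∃ T : Subgroup (HopfE Q), T ≤ Y ∧ T ⊓ commutator (HopfE Q) = ⊥ ∧
      Y ≤ T ⊔ (Y ⊓ commutator (HopfE Q)) := by
  let _ : CommGroup Y := { (inferInstance : Group Y) with
    mul_comm := fun a b => Subtype.ext (by
      have := Subgroup.mem_center_iff.mp (hY a.2) b.1
      exact this.symm) }
  let ψ : Y →* Multiplicative (Q →₀ ℤ) :=
    ((abEquiv Q).toMonoidHom.comp (hopfAb Q)).comp Y.subtype
  obtain ⟨T₀, h1, h2⟩ := exists_complement_ker ψ
  have hker : ∀ y : Y, y ∈ ψ.ker ↔ (y : HopfE Q) ∈ commutator (HopfE Q) := by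
    intro y
    rw [← hopfAb_ker, MonoidHom.mem_ker, MonoidHom.mem_ker]
    show (abEquiv Q) (hopfAb Q y) = 1 ↔ _
    exact (abEquiv Q).map_eq_one_iff
  refine ⟨T₀.map Y.subtype, ?_, ?_, ?_⟩
  · rintro _ ⟨y, _, rfl⟩; exact y.2
  · rw [eq_bot_iff]
    rintro _ ⟨⟨y, hy, rfl⟩, hc⟩
    have hmem : y ∈ T₀ ⊓ ψ.ker := ⟨hy, (hker y).mpr hc⟩
    rw [h1, Subgroup.mem_bot] at hmem
    rw [Subgroup.mem_bot, hmem]; rfl
  · intro y hy
    have hmem : (⟨y, hy⟩ : Y) ∈ T₀ ⊔ ψ.ker := by rw [h2]; trivial
    obtain ⟨t, ht, k, hk, htk⟩ := Subgroup.mem_sup.mp hmem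
    have hyeq : y = (t : HopfE Q) * (k : HopfE Q) := by
      have := congrArg Subtype.val htk
      exact this.symm
    rw [hyeq]
    exact Subgroup.mul_mem_sup ⟨t, ht, rfl⟩ ⟨k.2, (hker k).mp hk⟩

theorem commutatorSet_hopfE_finite [Finite Q] : (commutatorSet (HopfE Q)).Finite := by
  let e : Q → HopfE Q := fun q => Function.surjInv (hopfProj_surjective Q) q
  have he : ∀ q, hopfProj Q (e q) = q := fun q => Function.surjInv_eq _ q
  have hsub : commutatorSet (HopfE Q) ⊆ Set.range (fun p : Q × Q => ⁅e p.1, e p.2⁆) := by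
    rintro _ ⟨a, b, rfl⟩
    refine ⟨(hopfProj Q a, hopfProj Q b), ?_⟩
    have hza : (e (hopfProj Q a))⁻¹ * a ∈ Subgroup.center (HopfE Q) :=
      hopfProj_ker_le_center Q (MonoidHom.mem_ker.mpr (by rw [map_mul, map_inv, he]; simp))
    have hzb : (e (hopfProj Q b))⁻¹ * b ∈ Subgroup.center (HopfE Q) :=
      hopfProj_ker_le_center Q (MonoidHom.mem_ker.mpr (by rw [map_mul, map_inv, he]; simp))
    have h1 := commutatorElement_mul_central (a := e (hopfProj Q a)) (b := e (hopfProj Q b)) hza hzb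
    have h2 : e (hopfProj Q a) * ((e (hopfProj Q a))⁻¹ * a) = a := by group
    have h3 : e (hopfProj Q b) * ((e (hopfProj Q b))⁻¹ * b) = b := by group
    rw [h2, h3] at h1
    exact h1.symm
  exact (Set.finite_range _).subset hsub

instance commutatorSet_hopfE_finite' [Finite Q] : Finite (commutatorSet (HopfE Q)) :=
  (commutatorSet_hopfE_finite Q).to_subtype

instance hopfM_finite [Finite Q] : Finite (hopfM Q) := by
  have : Finite (commutator (HopfE Q)) := inferInstance
  exact Finite.of_injective (Subgroup.inclusion (hopfM_le_commutator Q))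
    (Subgroup.inclusion_injective _)

/-- a complement of the multiplier in the kernel gives a Schur cover -/
theorem exists_cover_of_complement [Finite Q] (T : Subgroup (HopfE Q))
    (hT : T ≤ (hopfProj Q).ker) (h1 : T ⊓ commutator (HopfE Q) = ⊥)
    (h2 : (hopfProj Q).ker ≤ T ⊔ hopfM Q) :
    ∃ (Γ : Type u) (_ : Group Γ) (_ : Finite Γ) (σ : Γ →* Q) (q : HopfE Q →* Γ),
      Cfsg.IsStemExtension σ ∧ Nonempty (σ.ker ≃* hopfM Q) ∧ Function.Surjective q ∧
        q.ker = T ∧ σ.comp q = hopfProj Q := by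
  have hTn : T.Normal := normal_of_le_center T (hT.trans (hopfProj_ker_le_center Q))
  let σ : (HopfE Q ⧸ T) →* Q := QuotientGroup.lift T (hopfProj Q) hT
  have hσ : ∀ e : HopfE Q, σ (QuotientGroup.mk e) = hopfProj Q e := fun e => rfl
  -- every element of the kernel is congruent to an element of the multiplier
  have hdecomp : ∀ e ∈ (hopfProj Q).ker, ∃ m ∈ hopfM Q,
      (QuotientGroup.mk e : HopfE Q ⧸ T) = QuotientGroup.mk m := by
    intro e he
    have hmem : e ∈ ((T ⊔ hopfM Q : Subgroup (HopfE Q)) : Set (HopfE Q)) := h2 he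
    rw [Subgroup.normal_mul] at hmem
    obtain ⟨t, ht, m, hm, rfl⟩ := Set.mem_mul.mp hmem
    refine ⟨m, hm, ?_⟩
    rw [QuotientGroup.eq]
    have : (t * m)⁻¹ * m = m⁻¹ * t⁻¹ * m := by group
    rw [this]
    have htc := Subgroup.mem_center_iff.mp (hopfProj_ker_le_center Q (hT (T.inv_mem ht))) m
    have : m⁻¹ * t⁻¹ * m = t⁻¹ := by rw [mul_assoc, ← htc]; group
    rw [this]; exact T.inv_mem ht
  have hfin : Finite (HopfE Q ⧸ T) := by
    let e : Q → HopfE Q := fun q => Function.surjInv (hopfProj_surjective Q) q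
    have he : ∀ q, hopfProj Q (e q) = q := fun q => Function.surjInv_eq _ q
    let F : Q × hopfM Q → HopfE Q ⧸ T := fun p => QuotientGroup.mk (e p.1 * (p.2 : HopfE Q))
    apply Finite.of_surjective F
    intro g
    obtain ⟨x, rfl⟩ := QuotientGroup.mk_surjective g
    have hk : (e (hopfProj Q x))⁻¹ * x ∈ (hopfProj Q).ker :=
      MonoidHom.mem_ker.mpr (by rw [map_mul, map_inv, he]; simp)
    obtain ⟨m, hm, hmeq⟩ := hdecomp _ hk
    refine ⟨(hopfProj Q x, ⟨m, hm⟩), ?_⟩
    show (QuotientGroup.mk (e (hopfProj Q x) * m) : HopfE Q ⧸ T) = QuotientGroup.mk x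
    rw [QuotientGroup.mk_mul, ← hmeq, ← QuotientGroup.mk_mul]
    congr 1
    group
  refine ⟨HopfE Q ⧸ T, inferInstance, hfin, σ, QuotientGroup.mk' T, ⟨?_, ?_, ?_⟩, ?_, ?_, ?_, ?_⟩
  · intro q
    obtain ⟨e, he⟩ := hopfProj_surjective Q q
    exact ⟨QuotientGroup.mk e, he⟩
  · intro x hx
    obtain ⟨e, rfl⟩ := QuotientGroup.mk_surjective x
    have he : e ∈ (hopfProj Q).ker := MonoidHom.mem_ker.mpr (MonoidHom.mem_ker.mp hx)
    have hec := Subgroup.mem_center_iff.mp (hopfProj_ker_le_center Q he)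
    rw [Subgroup.mem_center_iff]
    intro g
    obtain ⟨g, rfl⟩ := QuotientGroup.mk_surjective g
    rw [← QuotientGroup.mk_mul, ← QuotientGroup.mk_mul, hec g]
  · intro x hx
    obtain ⟨e, rfl⟩ := QuotientGroup.mk_surjective x
    have he : e ∈ (hopfProj Q).ker := MonoidHom.mem_ker.mpr (MonoidHom.mem_ker.mp hx)
    obtain ⟨m, hm, hmeq⟩ := hdecomp e he
    rw [hmeq]
    exact map_commutator_le (QuotientGroup.mk' T) ⟨m, hopfM_le_commutator Q hm, rfl⟩
  · -- the kernel is isomorphic to the multiplier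
    let f : hopfM Q →* σ.ker := ((QuotientGroup.mk' T).comp (hopfM Q).subtype).codRestrict _ (by
      intro m
      exact MonoidHom.mem_ker.mpr (MonoidHom.mem_ker.mp (hopfM_le_ker Q m.2)))
    have hinj : Function.Injective f := by
      rw [injective_iff_map_eq_one]
      intro m hm
      have h : (QuotientGroup.mk (m : HopfE Q) : HopfE Q ⧸ T) = 1 := congrArg Subtype.val hm
      rw [QuotientGroup.eq_one_iff] at h
      have : (m : HopfE Q) ∈ T ⊓ commutator (HopfE Q) := ⟨h, hopfM_le_commutator Q m.2⟩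
      rw [h1, Subgroup.mem_bot] at this
      exact Subtype.ext this
    have hsurj : Function.Surjective f := by
      rintro ⟨x, hx⟩
      obtain ⟨e, rfl⟩ := QuotientGroup.mk_surjective x
      have he : e ∈ (hopfProj Q).ker := MonoidHom.mem_ker.mpr (MonoidHom.mem_ker.mp hx)
      obtain ⟨m, hm, hmeq⟩ := hdecomp e he
      exact ⟨⟨m, hm⟩, Subtype.ext hmeq.symm⟩
    exact ⟨(MulEquiv.ofBijective f ⟨hinj, hsurj⟩).symm⟩
  · exact QuotientGroup.mk'_surjective T
  · exact QuotientGroup.ker_mk' T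
  · rfl

/-- existence of a Schur cover -/
theorem exists_cover [Finite Q] :
    ∃ (Γ : Type u) (_ : Group Γ) (_ : Finite Γ) (σ : Γ →* Q),
      Cfsg.IsStemExtension σ ∧ Nonempty (σ.ker ≃* hopfM Q) := by
  obtain ⟨T, hT, h1, h2⟩ := exists_central_complement Q (hopfProj Q).ker (hopfProj_ker_le_center Q)
  obtain ⟨Γ, i1, i2, σ, q, hst, hker, -, -, -⟩ := exists_cover_of_complement Q T hT h1 h2
  exact ⟨Γ, i1, i2, σ, hst, hker⟩

/-- the kernel of every stem extension is an image of the multiplier -/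
theorem hopf_surj_stem {X : Type w} [Group X] (ξ : X →* Q) (hξ : Cfsg.IsStemExtension ξ) :
    ∃ f : hopfM Q →* ξ.ker, Function.Surjective f := by
  obtain ⟨f, hf⟩ := hopf_surj Q ξ hξ.1 hξ.2.1
  refine ⟨(Subgroup.inclusion inf_le_left).comp f, ?_⟩
  intro x
  obtain ⟨y, hy⟩ := hf ⟨x.1, ⟨x.2, hξ.2.2 x.2⟩⟩
  refine ⟨y, ?_⟩
  apply Subtype.ext
  show ((f y : ↥(ξ.ker ⊓ commutator X)) : X) = x
  rw [hy]

/-- `HasSchurMultiplier Q A` says exactly that `A` is isomorphic to Hopf's multiplier -/
theorem hasSchurMultiplier_iff [Finite Q] {A : Type v} [CommGroup A] :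
    Cfsg.HasSchurMultiplier Q A ↔ Nonempty (A ≃* hopfM Q) := by
  obtain ⟨Γ, i1, i2, σ, hst, ⟨eσ⟩⟩ := exists_cover Q
  constructor
  · rintro ⟨⟨Γ₀, j1, j2, σ₀, hst₀, ⟨e₀⟩⟩, h⟩
    obtain ⟨π, hπ⟩ := h Γ σ hst
    obtain ⟨f₀, hf₀⟩ := hopf_surj_stem Q σ₀ hst₀
    have hfinA : Finite A := Finite.of_equiv _ e₀.toEquiv
    let g : A →* hopfM Q := eσ.toMonoidHom.comp π
    have hg : Function.Surjective g := eσ.surjective.comp hπ
    have hle : Nat.card A ≤ Nat.card (hopfM Q) :=
      Nat.card_le_card_of_surjective (e₀ ∘ f₀) (e₀.surjective.comp hf₀)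
    exact ⟨MulEquiv.ofBijective g (hg.bijective_of_nat_card_le hle)⟩
  · rintro ⟨e⟩
    refine ⟨⟨Γ, i1, i2, σ, hst, ⟨eσ.trans e.symm⟩⟩, ?_⟩
    intro Γ' _ _ σ' hst'
    obtain ⟨f, hf⟩ := hopf_surj_stem Q σ' hst'
    exact ⟨f.comp e.toMonoidHom, hf.comp e.surjective⟩

/-- the multiplier maps onto `ker ξ ⊓ X'` for every central extension `ξ : X → Q` -/
theorem exists_surj_of_hasSchurMultiplier [Finite Q] {A : Type v} [CommGroup A]
    (hA : Cfsg.HasSchurMultiplier Q A) {X : Type w} [Group X] (ξ : X →* Q)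
    (hξ : Function.Surjective ξ) (hc : ξ.ker ≤ Subgroup.center X) :
    ∃ f : A →* ↥(ξ.ker ⊓ commutator X), Function.Surjective f := by
  obtain ⟨e⟩ := (hasSchurMultiplier_iff Q).mp hA
  obtain ⟨f, hf⟩ := hopf_surj Q ξ hξ hc
  exact ⟨f.comp e.toMonoidHom, hf.comp e.surjective⟩

end hopf

end Cfsg.Agent.Lib.Helper66
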