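import Mathlib
import Cfsg.Prelude.Def_KGroupFacts
import Cfsg.Agent.Lib.Helper66.Hopf

set_option autoImplicit false
open scoped commutatorElement

namespace Cfsg.Agent.Lib.Helper66

universe u v w

/-- a surjective homomorphism maps the commutator subgroup onto the commutator subgroup -/
theorem map_commutator_eq_of_surjective {G H : Type*} [Group G] [Group H] (f : G →* H)
    (hf : Function.Surjective f) : (commutator G).map f = commutator H := by
  rw [commutator_def, Subgroup.map_commutator, commutator_def, ← MonoidHom.range_eq_map,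
    MonoidHom.range_eq_top.mpr hf]

/-- a homomorphism from a perfect group into a group with commutative multiplication is trivial -/
theorem eq_one_of_perfect {G A : Type*} [Group G] [Group A] (hG : Group.IsPerfect G)
    (hA : ∀ a b : A, a * b = b * a) (f : G →* A) (g : G) : f g = 1 := by
  have hle : commutator G ≤ f.ker := by
    rw [commutator_eq_closure, Subgroup.closure_le]
    rintro x ⟨p, q, rfl⟩
    simp only [SetLike.mem_coe, MonoidHom.mem_ker, commutatorElement_def, map_mul, map_inv]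
    rw [hA (f p) (f q)]
    group
  rw [hG.commutator_eq_top] at hle
  exact MonoidHom.mem_ker.mp (hle (Subgroup.mem_top g))

/-- in a perfect group, an element central modulo the centre is central -/
theorem mem_center_of_perfect {G : Type*} [Group G] (hG : Group.IsPerfect G) (z : G)
    (hz : ∀ g : G, z * g * z⁻¹ * g⁻¹ ∈ Subgroup.center G) : z ∈ Subgroup.center G := by
  obtain ⟨φ, hφdef⟩ : ∃ φ : G →* Subgroup.center G, ∀ g, (φ g : G) = z * g * z⁻¹ * g⁻¹ := by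
    refine ⟨MonoidHom.mk' (fun g => ⟨z * g * z⁻¹ * g⁻¹, hz g⟩) ?_, fun g => rfl⟩
    intro a b
    apply Subtype.ext
    have hb := hz b
    rw [Subgroup.mem_center_iff] at hb
    show z * (a * b) * z⁻¹ * (a * b)⁻¹ = z * a * z⁻¹ * a⁻¹ * (z * b * z⁻¹ * b⁻¹)
    calc z * (a * b) * z⁻¹ * (a * b)⁻¹ = z * a * z⁻¹ * ((z * b * z⁻¹ * b⁻¹) * a⁻¹) := by group
      _ = z * a * z⁻¹ * (a⁻¹ * (z * b * z⁻¹ * b⁻¹)) := by rw [hb a⁻¹]
      _ = z * a * z⁻¹ * a⁻¹ * (z * b * z⁻¹ * b⁻¹) := by group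
  rw [Subgroup.mem_center_iff]
  intro g
  have h1 : φ g = 1 := eq_one_of_perfect hG (fun a b => mul_comm' a b) φ g
  have h2 : z * g * z⁻¹ * g⁻¹ = 1 := by rw [← hφdef g, h1]; rfl
  calc g * z = (z * g * z⁻¹ * g⁻¹)⁻¹ * (z * g) := by group
    _ = z * g := by rw [h2]; group

/-- two homomorphisms from a perfect group which agree modulo a central kernel are equal -/
theorem hom_eq_of_perfect {G X Q : Type*} [Group G] [Group X] [Group Q] (hG : Group.IsPerfect G)
    (ξ : X →* Q) (hc : ξ.ker ≤ Subgroup.center X) (η₁ η₂ : G →* X)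
    (h : ξ.comp η₁ = ξ.comp η₂) : η₁ = η₂ := by
  have h' : ∀ g, ξ (η₁ g) = ξ (η₂ g) := fun g => by
    have := congrArg (fun f => f g) h
    exact this
  have hmem : ∀ g, η₁ g * (η₂ g)⁻¹ ∈ Subgroup.center X := fun g =>
    hc (MonoidHom.mem_ker.mpr (by rw [map_mul, map_inv, h' g]; simp))
  obtain ⟨d, hd⟩ : ∃ d : G →* Subgroup.center X, ∀ g, (d g : X) = η₁ g * (η₂ g)⁻¹ := by
    refine ⟨MonoidHom.mk' (fun g => ⟨η₁ g * (η₂ g)⁻¹, hmem g⟩) ?_, fun g => rfl⟩
    intro a b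
    apply Subtype.ext
    have hb := hmem b
    rw [Subgroup.mem_center_iff] at hb
    show η₁ (a * b) * (η₂ (a * b))⁻¹ = η₁ a * (η₂ a)⁻¹ * (η₁ b * (η₂ b)⁻¹)
    rw [map_mul, map_mul]
    calc η₁ a * η₁ b * (η₂ a * η₂ b)⁻¹ = η₁ a * ((η₁ b * (η₂ b)⁻¹) * (η₂ a)⁻¹) := by group
      _ = η₁ a * ((η₂ a)⁻¹ * (η₁ b * (η₂ b)⁻¹)) := by rw [hb (η₂ a)⁻¹]
      _ = η₁ a * (η₂ a)⁻¹ * (η₁ b * (η₂ b)⁻¹) := by group
  refine MonoidHom.ext fun g => ?_
  have h1 : d g = 1 := eq_one_of_perfect hG (fun a b => mul_comm' a b) d g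
  have h2 : η₁ g * (η₂ g)⁻¹ = 1 := by rw [← hd g, h1]; rfl
  exact mul_inv_eq_one.mp h2

section pullback

variable {Γ : Type u} {Δ : Type v} {Q : Type w} [Group Γ] [Group Δ] [Group Q]

/-- the pullback of two homomorphisms to `Q` -/
def pullback (σ : Γ →* Q) (τ : Δ →* Q) : Subgroup (Γ × Δ) :=
  (σ.comp (MonoidHom.fst Γ Δ)).eqLocus (τ.comp (MonoidHom.snd Γ Δ))

theorem mem_pullback (σ : Γ →* Q) (τ : Δ →* Q) (x : Γ × Δ) :
    x ∈ pullback σ τ ↔ σ x.1 = τ x.2 := Iff.rfl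

/-- first projection of the pullback -/
def pbFst (σ : Γ →* Q) (τ : Δ →* Q) : pullback σ τ →* Γ :=
  (MonoidHom.fst Γ Δ).comp (pullback σ τ).subtype

/-- second projection of the pullback -/
def pbSnd (σ : Γ →* Q) (τ : Δ →* Q) : pullback σ τ →* Δ :=
  (MonoidHom.snd Γ Δ).comp (pullback σ τ).subtype

theorem pbFst_apply (σ : Γ →* Q) (τ : Δ →* Q) (x : pullback σ τ) : pbFst σ τ x = x.1.1 := rfl

theorem pbSnd_apply (σ : Γ →* Q) (τ : Δ →* Q) (x : pullback σ τ) : pbSnd σ τ x = x.1.2 := rfl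

theorem pb_comm (σ : Γ →* Q) (τ : Δ →* Q) (x : pullback σ τ) :
    σ (pbFst σ τ x) = τ (pbSnd σ τ x) := x.2

theorem pbFst_surjective (σ : Γ →* Q) (τ : Δ →* Q) (hτ : Function.Surjective τ) :
    Function.Surjective (pbFst σ τ) := by
  intro g
  obtain ⟨d, hd⟩ := hτ (σ g)
  exact ⟨⟨(g, d), hd.symm⟩, rfl⟩

theorem pbSnd_surjective (σ : Γ →* Q) (τ : Δ →* Q) (hσ : Function.Surjective σ) :
    Function.Surjective (pbSnd σ τ) := by
  intro d
  obtain ⟨g, hg⟩ := hσ (τ d)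
  exact ⟨⟨(g, d), hg⟩, rfl⟩

theorem pbFst_ker_le_center (σ : Γ →* Q) (τ : Δ →* Q) (hτ : τ.ker ≤ Subgroup.center Δ) :
    (pbFst σ τ).ker ≤ Subgroup.center (pullback σ τ) := by
  intro x hx
  have hx1 : x.1.1 = 1 := MonoidHom.mem_ker.mp hx
  have hx2 : x.1.2 ∈ Subgroup.center Δ := by
    apply hτ
    rw [MonoidHom.mem_ker]
    have := x.2
    rw [mem_pullback, hx1, map_one] at this
    exact this.symm
  rw [Subgroup.mem_center_iff]
  intro y
  apply Subtype.ext
  apply Prod.ext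
  · show y.1.1 * x.1.1 = x.1.1 * y.1.1
    rw [hx1]; simp
  · show y.1.2 * x.1.2 = x.1.2 * y.1.2
    exact Subgroup.mem_center_iff.mp hx2 _

/-- if the pullback of two stem extensions has no commutators in the kernel of the first
projection, the kernel of the second is an image of the kernel of the first -/
theorem exists_surj_ker_of_pullback (σ : Γ →* Q) (τ : Δ →* Q) (hσ : Cfsg.IsStemExtension σ)
    (hτ : Cfsg.IsStemExtension τ)
    (h : (pbFst σ τ).ker ⊓ commutator (pullback σ τ) = ⊥) :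
    ∃ π : σ.ker →* τ.ker, Function.Surjective π := by
  let W : Subgroup (pullback σ τ) := commutator (pullback σ τ) ⊓ σ.ker.comap (pbFst σ τ)
  let p₁ : W →* σ.ker := ((pbFst σ τ).comp W.subtype).codRestrict _ (fun w => w.2.2)
  have hinj : Function.Injective p₁ := by
    rw [injective_iff_map_eq_one]
    intro w hw
    have h1 : pbFst σ τ w.1 = 1 := congrArg Subtype.val hw
    have h2 : w.1 ∈ (pbFst σ τ).ker ⊓ commutator (pullback σ τ) :=
      ⟨MonoidHom.mem_ker.mpr h1, w.2.1⟩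
    rw [h, Subgroup.mem_bot] at h2
    exact Subtype.ext h2
  have hsurj : Function.Surjective p₁ := by
    rintro ⟨k, hk⟩
    have hk' : k ∈ commutator Γ := hσ.2.2 hk
    rw [← map_commutator_eq_of_surjective (pbFst σ τ) (pbFst_surjective σ τ hτ.1)] at hk'
    obtain ⟨w, hw, rfl⟩ := hk'
    exact ⟨⟨w, hw, hk⟩, rfl⟩
  let e : W ≃* σ.ker := MulEquiv.ofBijective p₁ ⟨hinj, hsurj⟩
  let p₂ : W →* τ.ker := ((pbSnd σ τ).comp W.subtype).codRestrict _ (fun w => by
    rw [MonoidHom.mem_ker]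
    show τ (pbSnd σ τ w.1) = 1
    rw [← pb_comm]
    exact MonoidHom.mem_ker.mp w.2.2)
  refine ⟨p₂.comp e.symm.toMonoidHom, ?_⟩
  rintro ⟨d, hd⟩
  have hd' : d ∈ commutator Δ := hτ.2.2 hd
  rw [← map_commutator_eq_of_surjective (pbSnd σ τ) (pbSnd_surjective σ τ hσ.1)] at hd'
  obtain ⟨w, hw, rfl⟩ := hd'
  have hwk : pbFst σ τ w ∈ σ.ker := by
    rw [MonoidHom.mem_ker, pb_comm]
    exact MonoidHom.mem_ker.mp hd
  refine ⟨e ⟨w, hw, hwk⟩, ?_⟩
  show p₂ (e.symm (e ⟨w, hw, hwk⟩)) = _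
  rw [MulEquiv.symm_apply_apply]
  rfl

end pullback

end Cfsg.Agent.Lib.Helper66
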