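import Mathlib
import Cfsg.Agent.S0894
import Cfsg.Agent.Lib.Helper80.CharKer
import Cfsg.Agent.Lib.Helper80.PrimeCodeg
import Cfsg.Agent.Lib.Helper75.CharInd

/-!
# The faithful irreducible characters of an extraspecial group, and induction from
a central subgroup
-/

set_option autoImplicit false

namespace Cfsg.Agent.Lib.Helper66.ExtraChar

open scoped ComplexConjugate commutatorElement

/-- In an extraspecial group all commutators are central. -/
theorem comm_mem_center {E : Type*} [Group E] {p : ℕ} (hE : Cfsg.IsExtraspecial p E) (a b : E) :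
    a * b * a⁻¹ * b⁻¹ ∈ Subgroup.center E := by
  have h1 : ⁅a, b⁆ ∈ commutator E :=
    Subgroup.commutator_mem_commutator (Subgroup.mem_top _) (Subgroup.mem_top _)
  rw [hE.1.2.2, commutatorElement_def] at h1
  exact h1

/-- An extraspecial group of order `p ^ (2 * n + 1)`, `n ≥ 1`, has an irreducible character
which is `p ^ n` times a linear character on the centre and vanishes off the centre. -/
theorem exists_faithful_char {E : Type*} [Group E] [Finite E] (p n : ℕ) [Fact p.Prime]
    (hE : Cfsg.IsExtraspecial p E) (hcard : Nat.card E = p ^ (2 * n + 1)) :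
    ∃ χ : E → ℂ, Cfsg.IsIrrCharacter E χ ∧ ∃ f : Subgroup.center E →* ℂˣ,
      (∀ z : Subgroup.center E, χ z = (p : ℂ) ^ n * (f z : ℂ)) ∧
      (∀ g : E, g ∉ Subgroup.center E → χ g = 0) := by
  classical
  have hp : p.Prime := Fact.out
  obtain ⟨-, hcnt⟩ := Cfsg.Agent.S0894.result p n hE hcard
  have hne : Nonempty {χ : Cfsg.IrrCharacter E // (χ : E → ℂ) 1 = (p : ℂ) ^ n} := by
    have h0 : 0 < Nat.card {χ : Cfsg.IrrCharacter E // (χ : E → ℂ) 1 = (p : ℂ) ^ n} := by
      rw [hcnt]; have := hp.two_le; omega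
    exact (Nat.card_pos_iff.mp h0).1
  obtain ⟨⟨⟨χ, hχ⟩, hdeg⟩⟩ := hne
  change χ 1 = (p : ℂ) ^ n at hdeg
  have hpn0 : ((p : ℂ) ^ n) ≠ 0 := pow_ne_zero _ (Nat.cast_ne_zero.mpr hp.ne_zero)
  have hsc := fun z (hz : z ∈ Subgroup.center E) => Cfsg.Agent.S0894.central_scalar hχ z hz
  -- values on the centre
  have hval : ∀ z ∈ Subgroup.center E, ∀ g, χ (g * z) * (p : ℂ) ^ n = χ z * χ g := by
    intro z hz g
    obtain ⟨c, hc, -⟩ := hsc z hz
    have h1 := hc 1
    rw [one_mul, hdeg] at h1
    rw [hc g, h1]; ring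
  have hnorm : ∀ z ∈ Subgroup.center E, ‖χ z‖ = (p : ℝ) ^ n := by
    intro z hz
    obtain ⟨c, hc, hcpow⟩ := hsc z hz
    have hpos : orderOf z ≠ 0 := (orderOf_pos z).ne'
    have hn1 : ‖c‖ = 1 := Complex.norm_eq_one_of_pow_eq_one hcpow hpos
    have h1 := hc 1
    rw [one_mul, hdeg] at h1
    rw [h1, norm_mul, hn1, one_mul, norm_pow, Complex.norm_natCast]
  let f₀ : Subgroup.center E →* ℂ :=
    { toFun := fun z => χ z / (p : ℂ) ^ n
      map_one' := by
        change χ ((1 : Subgroup.center E) : E) / (p : ℂ) ^ n = 1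
        rw [Subgroup.coe_one, hdeg, div_self hpn0]
      map_mul' := by
        intro a b
        change χ ((a * b : Subgroup.center E) : E) / (p : ℂ) ^ n
          = χ a / (p : ℂ) ^ n * (χ b / (p : ℂ) ^ n)
        have h := hval b b.2 a
        rw [Subgroup.coe_mul]
        field_simp
        rw [h]; ring }
  refine ⟨χ, hχ, f₀.toHomUnits, ?_, ?_⟩
  · intro z
    rw [MonoidHom.coe_toHomUnits]
    change χ z = (p : ℂ) ^ n * (χ z / (p : ℂ) ^ n)
    field_simp
  · have := Fintype.ofFinite E
    have hsum := Cfsg.Agent.Lib.Helper80.sum_norm_sq_eq_card hχ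
    rw [← Finset.sum_filter_add_sum_filter_not Finset.univ
      (fun g : E => g ∈ Subgroup.center E)] at hsum
    have hcardZ : (Finset.univ.filter (fun g : E => g ∈ Subgroup.center E)).card = p := by
      rw [← hE.2, Nat.card_eq_fintype_card, Fintype.card_subtype]
    have h1 : ∑ g ∈ Finset.univ.filter (fun g : E => g ∈ Subgroup.center E), ‖χ g‖ ^ 2
        = (Nat.card E : ℝ) := by
      rw [Finset.sum_congr rfl (fun g hg => by rw [hnorm g (Finset.mem_filter.mp hg).2]),
        Finset.sum_const, nsmul_eq_mul, hcardZ, hcard]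
      push_cast; ring
    have h2 : ∑ g ∈ Finset.univ.filter (fun g : E => ¬ g ∈ Subgroup.center E), ‖χ g‖ ^ 2
        = 0 := by linarith
    intro g hg
    have h3 := (Finset.sum_eq_zero_iff_of_nonneg (fun i _ => by positivity)).mp h2 g
      (Finset.mem_filter.mpr ⟨Finset.mem_univ _, hg⟩)
    simpa using h3

/-- Induction from a central subgroup `M` of a function `θ` to a function vanishing off
`M`. -/
theorem indFun_central {E : Type*} [Group E] [Fintype E] (M : Subgroup E)
    (hM : M ≤ Subgroup.center E) (θ : M → ℂ) (χ : E → ℂ) (e : ℕ)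
    (h1 : ∀ z : M, (M.index : ℂ) * θ z = (e : ℂ) * χ z) (h0 : ∀ g : E, g ∉ M → χ g = 0) :
    Cfsg.indFun M θ = fun g => (e : ℂ) * χ g := by
  classical
  funext g
  unfold Cfsg.indFun
  by_cases hg : g ∈ M
  · have hconj : ∀ x : E, x⁻¹ * g * x = g := by
      intro x
      have := Subgroup.mem_center_iff.mp (hM hg) x
      rw [mul_assoc, ← this, inv_mul_cancel_left]
    simp only [hconj]
    rw [Cfsg.Agent.Lib.Helper75.extendByZero_mem M θ hg, Finset.sum_const, Finset.card_univ,
      nsmul_eq_mul, ← h1 ⟨g, hg⟩]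
    have hidx : (Fintype.card E : ℂ) = (M.index : ℂ) * (Nat.card M : ℂ) := by
      rw [← Nat.cast_mul, Subgroup.index_mul_card, Nat.card_eq_fintype_card]
    have hM0 : (Nat.card M : ℂ) ≠ 0 := by
      exact_mod_cast (Nat.card_pos (α := M)).ne'
    rw [hidx]; field_simp
  · have hnot : ∀ x : E, x⁻¹ * g * x ∉ M := by
      intro x hx
      apply hg
      have hc := Subgroup.mem_center_iff.mp (hM hx) x⁻¹
      have hgx : g = x⁻¹ * g * x := by
        calc g = x * ((x⁻¹ * g * x) * x⁻¹) := by group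
          _ = x⁻¹ * g * x := by rw [← hc, mul_inv_cancel_left]
      rw [hgx]; exact hx
    rw [Finset.sum_eq_zero (fun x _ => Cfsg.Agent.Lib.Helper75.extendByZero_not_mem M θ
      (hnot x)), mul_zero, h0 g hg, mul_zero]

end Cfsg.Agent.Lib.Helper66.ExtraChar
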