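import Mathlib
import Cfsg.Prelude.Def_CaseTheorems
import Cfsg.Agent.S0016

/-!
# `p`-groups acting transitively on the non-zero vectors of a finite vector space

Number-theoretic and linear-algebraic lemmas used for S3370.
-/

set_option autoImplicit false

namespace Cfsg.Agent.Lib.Helper66.TV

/-- for odd `x` and odd exponent, `(x^j - 1)/(x - 1)` is odd -/
theorem exists_odd_cofactor (x : ℤ) (hx : Odd x) (m : ℕ) :
    ∃ c : ℤ, Odd c ∧ x ^ (2 * m + 1) - 1 = (x - 1) * c := by
  induction m with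
  | zero => exact ⟨1, odd_one, by ring⟩
  | succ m ih =>
    obtain ⟨c, hc, h⟩ := ih
    refine ⟨x ^ 2 * c + (x + 1), ?_, ?_⟩
    · exact ((hx.pow).mul hc).add_even (hx.add_odd odd_one)
    · have e : x ^ (2 * (m + 1) + 1) = x ^ 2 * x ^ (2 * m + 1) := by ring
      rw [e]
      linear_combination (x ^ 2) * h

/-- an odd integer dividing a power of two, and positive, is one -/
theorem eq_one_of_odd_dvd_two_pow (c : ℤ) (hc : Odd c) (hpos : 0 < c) (n : ℕ)
    (hd : c ∣ (2 : ℤ) ^ n) : c = 1 := by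
  have h1 : c.natAbs ∣ 2 ^ n := by
    have := Int.natAbs_dvd_natAbs.mpr hd
    simpa [Int.natAbs_pow] using this
  obtain ⟨i, _, hi⟩ := (Nat.dvd_prime_pow Nat.prime_two).mp h1
  have hodd : Odd c.natAbs := Int.natAbs_odd.mpr hc
  have hi0 : i = 0 := by
    by_contra h0
    rw [hi] at hodd
    exact (Nat.not_even_iff_odd.mpr hodd) (Nat.even_pow.mpr ⟨even_two, h0⟩)
  rw [hi0, pow_zero] at hi
  have h2 : c = c.natAbs := (Int.natAbs_of_nonneg hpos.le).symm
  rw [h2, hi]; rfl

/-- `2^n - 1 = p^j` with `j ≥ 1` forces `j = 1` -/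
theorem nt_two (n j p : ℕ) (hp : p.Prime) (hj : 1 ≤ j) (h : 2 ^ n - 1 = p ^ j) : j = 1 := by
  have hpos : 1 ≤ 2 ^ n := Nat.one_le_two_pow
  have h' : 2 ^ n = p ^ j + 1 := by omega
  have hpj : 2 ≤ p ^ j := by
    calc 2 ≤ p := hp.two_le
      _ = p ^ 1 := (pow_one p).symm
      _ ≤ p ^ j := Nat.pow_le_pow_right hp.pos hj
  have hn2 : 2 ≤ n := by
    by_contra hcon
    have hn : n = 0 ∨ n = 1 := by omega
    rcases hn with rfl | rfl
    · simp at h'; omega
    · simp at h'; omega
  have h4 : 4 ∣ 2 ^ n := by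
    obtain ⟨k, rfl⟩ := Nat.exists_eq_add_of_le hn2
    exact ⟨2 ^ k, by ring⟩
  have hpodd : Odd p := by
    rcases hp.eq_two_or_odd' with rfl | ho
    · exfalso
      have he : Even (2 ^ j + 1) := by
        rw [← h']; exact (Nat.even_pow.mpr ⟨even_two, by omega⟩)
      have ho : Odd (2 ^ j + 1) := (Nat.even_pow.mpr ⟨even_two, by omega⟩).add_one
      exact (Nat.not_even_iff_odd.mpr ho) he
    · exact ho
  rcases Nat.even_or_odd' j with ⟨m, rfl | rfl⟩
  · -- even exponent: impossible mod 4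
    exfalso
    have hy : Odd (p ^ m) := hpodd.pow
    obtain ⟨t, ht⟩ := hy
    have e : p ^ (2 * m) + 1 = 4 * (t * t + t) + 2 := by
      rw [mul_comm 2 m, pow_mul, ht]; ring
    rw [h', e] at h4
    omega
  · -- odd exponent
    obtain ⟨c, hc, hcof⟩ := exists_odd_cofactor (-(p : ℤ)) (Odd.neg (by exact_mod_cast hpodd)) m
    have e1 : ((p : ℤ) + 1) * c = (p : ℤ) ^ (2 * m + 1) + 1 := by
      have e2 : (-(p : ℤ)) ^ (2 * m + 1) = -((p : ℤ) ^ (2 * m + 1)) := by
        rw [neg_pow, Odd.neg_one_pow ⟨m, rfl⟩]; ring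
      rw [e2] at hcof
      linear_combination hcof
    have e3 : ((p : ℤ) + 1) * c = (2 : ℤ) ^ n := by
      rw [e1]; exact_mod_cast h'.symm
    have hp0 : (0 : ℤ) < (p : ℤ) + 1 := by positivity
    have hcpos : 0 < c := by
      have h2 : (0 : ℤ) < ((p : ℤ) + 1) * c := by rw [e3]; positivity
      exact (pos_iff_pos_of_mul_pos h2).mp hp0
    have hc1 : c = 1 := eq_one_of_odd_dvd_two_pow c hc hcpos n ⟨(p : ℤ) + 1, by rw [← e3]; ring⟩
    rw [hc1, mul_one] at e1
    have e4 : (p : ℤ) ^ (2 * m + 1) = (p : ℤ) ^ 1 := by rw [pow_one]; linarith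
    have e5 : p ^ (2 * m + 1) = p ^ 1 := by exact_mod_cast e4
    exact Nat.pow_right_injective hp.two_le e5

/-- `q^n - 1 = 2^j` with `q` an odd prime forces `n = 1` or `q = 3, n = 2` -/
theorem nt_odd (q n j : ℕ) (hq : q.Prime) (hq2 : q ≠ 2) (hn : 1 ≤ n) (h : q ^ n - 1 = 2 ^ j) :
    n = 1 ∨ (q = 3 ∧ n = 2) := by
  have hqodd : Odd q := hq.odd_of_ne_two hq2
  have hpos : 1 ≤ q ^ n := Nat.one_le_pow _ _ hq.pos
  have h' : q ^ n = 2 ^ j + 1 := by omega
  rcases Nat.even_or_odd' n with ⟨m, rfl | rfl⟩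
  · right
    have hm : 1 ≤ m := by omega
    have hy : Odd (q ^ m) := hqodd.pow
    have hy3 : 3 ≤ q ^ m := by
      calc 3 ≤ q := by
            have := hq.two_le
            omega
        _ = q ^ 1 := (pow_one q).symm
        _ ≤ q ^ m := Nat.pow_le_pow_right hq.pos hm
    have e : (q ^ m - 1) * (q ^ m + 1) = 2 ^ j := by
      have e1 : q ^ (2 * m) = q ^ m * q ^ m := by rw [two_mul, pow_add]
      rw [e1] at h'
      have e2 : (q ^ m - 1) * (q ^ m + 1) + 1 = q ^ m * q ^ m := by
        obtain ⟨k, hk⟩ := Nat.exists_eq_add_of_le (show 1 ≤ q ^ m by omega)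
        rw [hk]; simp; ring
      omega
    obtain ⟨a, _, ha⟩ := (Nat.dvd_prime_pow Nat.prime_two).mp ⟨_, e.symm⟩
    obtain ⟨b, _, hb⟩ := (Nat.dvd_prime_pow Nat.prime_two).mp ⟨_, (mul_comm _ _).trans e |>.symm⟩
    have hab : 2 ^ b = 2 ^ a + 2 := by omega
    have ha1 : a = 1 := by
      rcases Nat.lt_or_ge a 2 with h2 | h2
      · interval_cases a
        · exfalso
          simp at ha
          obtain ⟨t, ht⟩ := hy
          omega
        · rfl
      · exfalso
        obtain ⟨k, rfl⟩ := Nat.exists_eq_add_of_le h2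
        have h4a : 4 ∣ 2 ^ (2 + k) := ⟨2 ^ k, by ring⟩
        have hb2 : 2 ≤ b := by
          by_contra hcon
          have : b = 0 ∨ b = 1 := by omega
          rcases this with rfl | rfl <;> simp at hab
        obtain ⟨l, rfl⟩ := Nat.exists_eq_add_of_le hb2
        have h4b : 4 ∣ 2 ^ (2 + l) := ⟨2 ^ l, by ring⟩
        omega
    rw [ha1] at ha
    have hqm : q ^ m = 3 := by omega
    have hq3 : q = 3 := by
      have hd : q ∣ 3 := by
        rw [← hqm]; exact dvd_pow_self q (by omega)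
      exact (Nat.prime_dvd_prime_iff_eq hq Nat.prime_three).mp hd
    refine ⟨hq3, ?_⟩
    rw [hq3] at hqm
    have : m = 1 := Nat.pow_right_injective (le_refl 2 |>.trans (by norm_num : 2 ≤ 3)) (by simpa using hqm)
    omega
  · left
    obtain ⟨c, hc, hcof⟩ := exists_odd_cofactor (q : ℤ) (by exact_mod_cast hqodd) m
    have e3 : ((q : ℤ) - 1) * c = (2 : ℤ) ^ j := by
      rw [← hcof]
      have : (q : ℤ) ^ (2 * m + 1) = (2 : ℤ) ^ j + 1 := by exact_mod_cast h'
      rw [this]; ring
    have hq0 : (0 : ℤ) < (q : ℤ) - 1 := by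
      have := hq.two_le
      have : (2 : ℤ) ≤ (q : ℤ) := by exact_mod_cast this
      linarith
    have hcpos : 0 < c := by
      have h2 : (0 : ℤ) < ((q : ℤ) - 1) * c := by rw [e3]; positivity
      exact (pos_iff_pos_of_mul_pos h2).mp hq0
    have hc1 : c = 1 := eq_one_of_odd_dvd_two_pow c hc hcpos j ⟨(q : ℤ) - 1, by rw [← e3]; ring⟩
    rw [hc1, mul_one] at hcof
    have e4 : (q : ℤ) ^ (2 * m + 1) = (q : ℤ) ^ 1 := by rw [pow_one]; linarith
    have e5 : q ^ (2 * m + 1) = q ^ 1 := by exact_mod_cast e4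
    exact Nat.pow_right_injective hq.two_le e5


section General

variable {q : ℕ} [Fact q.Prime] {V : Type*} [AddCommGroup V] [Module (ZMod q) V]
  {G : Type*} [Group G] (ρ : G →* (V ≃ₗ[ZMod q] V))

theorem act_mul (g h : G) (x : V) : ρ (g * h) x = ρ g (ρ h x) := by
  rw [map_mul, LinearEquiv.mul_apply]

theorem act_one (x : V) : ρ 1 x = x := by
  rw [map_one]; rfl

/-- the stabiliser of a vector -/
def stab (v : V) : Subgroup G where
  carrier := {g | ρ g v = v}
  mul_mem' := by
    intro a b ha hb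
    simp only [Set.mem_ofPred_eq] at *
    rw [act_mul, hb, ha]
  one_mem' := act_one ρ v
  inv_mem' := by
    intro a ha
    simp only [Set.mem_ofPred_eq] at *
    have h := act_mul ρ a⁻¹ a v
    rw [inv_mul_cancel, act_one, ha] at h
    exact h.symm

theorem mem_stab {v : V} {g : G} : g ∈ stab ρ v ↔ ρ g v = v := Iff.rfl

theorem eq_of_act_eq (hρ : Function.Injective ρ) {g h : G} (H : ∀ x, ρ g x = ρ h x) : g = h :=
  hρ (LinearEquiv.ext H)

theorem act_ne_zero (g : G) {v : V} (hv : v ≠ 0) : ρ g v ≠ 0 :=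
  fun h => hv ((ρ g).map_eq_zero_iff.mp h)

theorem card_eq_mul_stab [Finite V] [Finite G]
    (htrans : ∀ v w : V, v ≠ 0 → w ≠ 0 → ∃ g : G, ρ g v = w) {v : V} (hv : v ≠ 0) :
    Nat.card G = (Nat.card V - 1) * Nat.card (stab ρ v) := by
  classical
  let f : G ⧸ stab ρ v → {w : V // w ≠ 0} := fun x =>
    Quotient.liftOn' x (fun g => ⟨ρ g v, act_ne_zero ρ g hv⟩) (by
      intro a b hab
      rw [QuotientGroup.leftRel_apply] at hab
      have h1 : ρ (a⁻¹ * b) v = v := hab
      apply Subtype.ext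
      show ρ a v = ρ b v
      have h2 := act_mul ρ a (a⁻¹ * b) v
      rw [mul_inv_cancel_left, h1] at h2
      exact h2.symm)
  have hinj : Function.Injective f := by
    intro x y
    induction x using Quotient.inductionOn' with | _ a => ?_
    induction y using Quotient.inductionOn' with | _ b => ?_
    intro hxy
    have h1 : ρ a v = ρ b v := congrArg Subtype.val hxy
    apply Quotient.sound'
    rw [QuotientGroup.leftRel_apply]
    show ρ (a⁻¹ * b) v = v
    rw [act_mul, ← h1, ← act_mul, inv_mul_cancel, act_one]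
  have hsurj : Function.Surjective f := by
    rintro ⟨w, hw⟩
    obtain ⟨g, hg⟩ := htrans v w hv hw
    exact ⟨QuotientGroup.mk g, Subtype.ext hg⟩
  have h1 : Nat.card (G ⧸ stab ρ v) = Nat.card {w : V // w ≠ 0} :=
    Nat.card_congr (Equiv.ofBijective f ⟨hinj, hsurj⟩)
  have h2 : Nat.card V = Nat.card {w : V // w ≠ 0} + 1 := by
    rw [← Finite.card_option]
    exact (Nat.card_congr (Equiv.optionSubtypeNe (0 : V))).symm
  rw [Subgroup.card_eq_card_quotient_mul_card_subgroup (stab ρ v), h1, h2]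
  simp

end General


section Plane

variable {V : Type*} [AddCommGroup V] [Module (ZMod 3) V]

theorem z3_cases : ∀ c : ZMod 3, c = 0 ∨ c = 1 ∨ c = -1 := by decide

theorem eq_zero_of_eq_neg {x : V} (h : x = -x) : x = 0 := by
  have h2 : (2 : ZMod 3) • x = 0 := by
    rw [two_smul]
    nth_rewrite 1 [h]
    exact neg_add_cancel x
  rcases smul_eq_zero.mp h2 with h3 | h3
  · exact absurd h3 (by decide)
  · exact h3

/-- `w` is not on the line through `v ≠ 0` -/
def Indep (v w : V) : Prop := v ≠ 0 ∧ w ≠ 0 ∧ w ≠ v ∧ w ≠ -v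

theorem Indep.zero {v w : V} (h : Indep v w) {a b : ZMod 3} (hab : a • v + b • w = 0) :
    a = 0 ∧ b = 0 := by
  obtain ⟨hv, hw, h1, h2⟩ := h
  rcases z3_cases b with rfl | rfl | rfl
  · rw [zero_smul, add_zero] at hab
    rcases smul_eq_zero.mp hab with h | h
    · exact ⟨h, rfl⟩
    · exact absurd h hv
  · exfalso
    rw [one_smul] at hab
    have hw' : w = -(a • v) := eq_neg_of_add_eq_zero_right hab
    rcases z3_cases a with rfl | rfl | rfl
    · apply hw; simpa using hw'
    · apply h2; simpa using hw'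
    · apply h1; simpa using hw'
  · exfalso
    rw [neg_smul, one_smul] at hab
    have hw' : w = a • v := by
      have h3 : a • v - w = 0 := by rw [sub_eq_add_neg]; exact hab
      exact (sub_eq_zero.mp h3).symm
    rcases z3_cases a with rfl | rfl | rfl
    · apply hw; simpa using hw'
    · apply h1; simpa using hw'
    · apply h2; simpa using hw'

theorem Indep.eq {v w : V} (h : Indep v w) {a b a' b' : ZMod 3}
    (hab : a • v + b • w = a' • v + b' • w) : a = a' ∧ b = b' := by
  have h0 : (a - a') • v + (b - b') • w = 0 := by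
    linear_combination (norm := module) hab
  obtain ⟨h1, h2⟩ := h.zero h0
  exact ⟨sub_eq_zero.mp h1, sub_eq_zero.mp h2⟩

theorem Indep.coords [Finite V] (hV : Nat.card V = 9) {v w : V} (h : Indep v w) (x : V) :
    ∃ a b : ZMod 3, x = a • v + b • w := by
  let φ : ZMod 3 × ZMod 3 → V := fun c => c.1 • v + c.2 • w
  have hinj : Function.Injective φ := by
    rintro ⟨a, b⟩ ⟨a', b'⟩ hab
    obtain ⟨h1, h2⟩ := h.eq hab
    exact Prod.ext h1 h2
  have hcard : Nat.card V ≤ Nat.card (ZMod 3 × ZMod 3) := by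
    rw [Nat.card_prod, Nat.card_zmod, hV]
  obtain ⟨⟨a, b⟩, hab⟩ := (hinj.bijective_of_nat_card_le hcard).2 x
  exact ⟨a, b, hab.symm⟩

omit [Module (ZMod 3) V] in
theorem exists_indep [Finite V] (hV : Nat.card V = 9) {v : V} (hv : v ≠ 0) : ∃ w, Indep v w := by
  by_contra hcon
  have hall : ∀ w : V, w = 0 ∨ w = v ∨ w = -v := by
    intro w
    by_contra hw
    push Not at hw
    exact hcon ⟨w, hv, hw.1, hw.2.1, hw.2.2⟩
  have hsub : (Set.univ : Set V) ⊆ {0, v, -v} := by
    intro w _
    rcases hall w with h | h | h <;> simp [h]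
  have h1 := Set.ncard_le_ncard hsub (Set.toFinite _)
  rw [Set.ncard_univ, hV] at h1
  have h2 : ({0, v, -v} : Set V).ncard ≤ 3 := by
    calc ({0, v, -v} : Set V).ncard ≤ ({v, -v} : Set V).ncard + 1 := Set.ncard_insert_le _ _
      _ ≤ (({-v} : Set V).ncard + 1) + 1 := by
          have := Set.ncard_insert_le v ({-v} : Set V)
          omega
      _ = 3 := by rw [Set.ncard_singleton]
  omega

theorem indep_of_eig {e : V ≃ₗ[ZMod 3] V} {u w : V} (hu : u ≠ 0) (hw : w ≠ 0) (h1 : e u = u)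
    (h2 : e w = -w) : Indep u w := by
  refine ⟨hu, hw, ?_, ?_⟩
  · rintro rfl
    exact hw (eq_zero_of_eq_neg (h1.symm.trans h2))
  · rintro rfl
    rw [map_neg, h1, neg_neg] at h2
    exact hu (eq_zero_of_eq_neg h2.symm)

end Plane


section Grp

variable {V : Type*} [AddCommGroup V] [Module (ZMod 3) V] [Finite V]
  {G : Type*} [Group G] {ρ : G →* (V ≃ₗ[ZMod 3] V)}

/-- the hypotheses of the `|V| = 9` case -/
structure Setup (ρ : G →* (V ≃ₗ[ZMod 3] V)) : Prop where
  card : Nat.card V = 9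
  inj : Function.Injective ρ
  two : IsPGroup 2 G
  trans : ∀ v w : V, v ≠ 0 → w ≠ 0 → ∃ g : G, ρ g v = w

theorem Setup.ext (S : Setup ρ) {v w : V} (h : Indep v w) {g g' : G} (hv : ρ g v = ρ g' v)
    (hw : ρ g w = ρ g' w) : g = g' := by
  apply eq_of_act_eq ρ S.inj
  intro x
  obtain ⟨a, b, rfl⟩ := h.coords S.card x
  rw [map_add, map_smul, map_smul, hv, hw, map_add, map_smul, map_smul]

theorem Setup.eq_one_of_fix (S : Setup ρ) {v w : V} (h : Indep v w) {g : G} (hv : ρ g v = v)
    (hw : ρ g w = w) : g = 1 :=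
  S.ext h (by rw [hv, act_one]) (by rw [hw, act_one])

theorem Setup.eq_one_of_shear (S : Setup ρ) {v w : V} (h : Indep v w) {g : G} (hv : ρ g v = v)
    {a : ZMod 3} (hw : ρ g w = a • v + w) : g = 1 := by
  have h3 : g * g * g = 1 := by
    apply S.eq_one_of_fix h
    · rw [act_mul, act_mul, hv, hv, hv]
    · have e : a + a + a = 0 := (by decide : ∀ a : ZMod 3, a + a + a = 0) a
      have e2 : a • v + (a • v + (a • v + w)) = (a + a + a) • v + w := by module
      have e3 : ρ (g * g * g) w = a • v + (a • v + (a • v + w)) := by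
        simp only [act_mul, hw, hv, map_add, map_smul]
      rw [e3, e2, e, zero_smul, zero_add]
  obtain ⟨k, hk⟩ := S.two g
  have h1 : orderOf g ∣ 2 ^ k := orderOf_dvd_of_pow_eq_one hk
  have h2 : orderOf g ∣ 3 := orderOf_dvd_of_pow_eq_one (by rw [pow_succ, pow_two]; exact h3)
  have h4 : orderOf g ∣ Nat.gcd (2 ^ k) 3 := Nat.dvd_gcd h1 h2
  have h5 : Nat.gcd (2 ^ k) 3 = 1 := Nat.Coprime.pow_left k (by norm_num)
  rw [h5] at h4
  exact orderOf_eq_one_iff.mp (Nat.dvd_one.mp h4)

theorem Setup.neg_of_fix (S : Setup ρ) {v w : V} (h : Indep v w) {g : G} (hv : ρ g v = v)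
    (hg : g ≠ 1) : ∃ a : ZMod 3, ρ g w = a • v - w := by
  obtain ⟨a, b, hab⟩ := h.coords S.card (ρ g w)
  rcases z3_cases b with rfl | rfl | rfl
  · exfalso
    rw [zero_smul, add_zero] at hab
    have h1 : ρ g w = ρ g (a • v) := by rw [map_smul, hv, hab]
    have h2 : w = a • v := (ρ g).injective h1
    have h3 : (0 : ZMod 3) • v + (1 : ZMod 3) • w = a • v + (0 : ZMod 3) • w := by
      rw [zero_smul, zero_smul, one_smul, zero_add, add_zero]; exact h2
    exact absurd (h.eq h3).2 (by decide)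
  · exfalso
    rw [one_smul] at hab
    exact hg (S.eq_one_of_shear h hv hab)
  · exact ⟨a, by rw [hab, neg_smul, one_smul, sub_eq_add_neg]⟩

theorem Setup.sq_of_fix (S : Setup ρ) {v : V} (hv0 : v ≠ 0) {g : G} (hv : ρ g v = v) :
    g * g = 1 := by
  by_cases hg : g = 1
  · rw [hg, mul_one]
  obtain ⟨w, h⟩ := exists_indep S.card hv0
  obtain ⟨a, ha⟩ := S.neg_of_fix h hv hg
  apply S.eq_one_of_fix h
  · rw [act_mul, hv, hv]
  · rw [act_mul, ha, map_sub, map_smul, hv, ha]; abel

theorem Setup.stab_unique (S : Setup ρ) {v : V} (hv0 : v ≠ 0) {g h : G} (hg : ρ g v = v)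
    (hg1 : g ≠ 1) (hh : ρ h v = v) (hh1 : h ≠ 1) : g = h := by
  obtain ⟨w, hi⟩ := exists_indep S.card hv0
  obtain ⟨a, ha⟩ := S.neg_of_fix hi hg hg1
  obtain ⟨a', ha'⟩ := S.neg_of_fix hi hh hh1
  have hgh : g * h = 1 := by
    apply S.eq_one_of_shear hi (a := a' - a)
    · rw [act_mul, hh, hg]
    · rw [act_mul, ha', map_sub, map_smul, hg, ha]; module
  have hh2 : h * h = 1 := S.sq_of_fix hv0 hh
  calc g = g * (h * h) := by rw [hh2, mul_one]
    _ = (g * h) * h := by rw [mul_assoc]
    _ = h := by rw [hgh, one_mul]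

theorem Setup.card_stab_le (S : Setup ρ) {v : V} (hv0 : v ≠ 0) : Nat.card (stab ρ v) ≤ 2 := by
  classical
  let f : stab ρ v → Bool := fun h => decide (h = 1)
  have hf : Function.Injective f := by
    intro a b hab
    by_cases ha : a = 1
    · have hb : b = 1 := by
        have h1 : f a = true := by simp [f, ha]
        rw [hab] at h1
        simpa [f] using h1
      rw [ha, hb]
    · have hb : b ≠ 1 := by
        intro hb
        have h1 : f b = true := by simp [f, hb]
        rw [← hab] at h1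
        exact ha (by simpa [f] using h1)
      have ha' : (a : G) ≠ 1 := fun h => ha (Subtype.ext h)
      have hb' : (b : G) ≠ 1 := fun h => hb (Subtype.ext h)
      exact Subtype.ext (S.stab_unique hv0 a.2 ha' b.2 hb')
  have h2 := Nat.card_le_card_of_injective f hf
  simpa using h2

omit [Finite V] in
theorem neg_of_no_fix {g : G} (hgg : g * g = 1) (hfix : ∀ u : V, u ≠ 0 → ρ g u ≠ u) (x : V) :
    ρ g x = -x := by
  have h1 : ρ g (x + ρ g x) = x + ρ g x := by
    rw [map_add, ← act_mul, hgg, act_one, add_comm]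
  have h0 : x + ρ g x = 0 := by
    by_contra h
    exact hfix _ h h1
  exact eq_neg_of_add_eq_zero_right h0

theorem Setup.exists_neg_eig (S : Setup ρ) {u : V} (hu : u ≠ 0) {h : G} (hfix : ρ h u = u)
    (hh1 : h ≠ 1) (hh : h * h = 1) : ∃ w, w ≠ 0 ∧ ρ h w = -w := by
  obtain ⟨x, hx⟩ := exists_indep S.card hu
  refine ⟨x - ρ h x, ?_, ?_⟩
  · intro h0
    have h1 : ρ h x = x := (sub_eq_zero.mp h0).symm
    exact hh1 (S.eq_one_of_fix hx hfix h1)
  · rw [map_sub, ← act_mul, hh, act_one]; abel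

theorem Setup.sq_of_comm (S : Setup ρ) {u : V} (hu : u ≠ 0) {h g : G} (hh : h * h = 1)
    (hh1 : h ≠ 1) (hfix : ρ h u = u) (hc : g * h = h * g) : g * g = 1 := by
  obtain ⟨w, hw0, hw1⟩ := S.exists_neg_eig hu hfix hh1 hh
  have hi : Indep u w := indep_of_eig hu hw0 hfix hw1
  have e1 : ρ h (ρ g u) = ρ g u := by rw [← act_mul, ← hc, act_mul, hfix]
  have e2 : ρ h (ρ g w) = -ρ g w := by rw [← act_mul, ← hc, act_mul, hw1, map_neg]
  obtain ⟨α, β, hαβ⟩ := hi.coords S.card (ρ g u)
  obtain ⟨γ, δ, hγδ⟩ := hi.coords S.card (ρ g w)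
  have hβ : β = 0 := by
    rw [hαβ, map_add, map_smul, map_smul, hfix, hw1, smul_neg, ← neg_smul] at e1
    exact (by decide : ∀ c : ZMod 3, -c = c → c = 0) β (hi.eq e1).2
  have hγ : γ = 0 := by
    rw [hγδ, map_add, map_smul, map_smul, hfix, hw1, smul_neg, ← neg_smul] at e2
    have e3 : γ • u + (-δ) • w = (-γ) • u + (-δ) • w := by
      rw [e2, neg_add, neg_smul, neg_smul]
    exact (by decide : ∀ c : ZMod 3, c = -c → c = 0) γ (hi.eq e3).1
  subst hβ; subst hγ
  simp only [zero_smul, add_zero, zero_add] at hαβ hγδ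
  have hα : α * α = 1 := by
    have h0 : α ≠ 0 := by
      rintro rfl
      rw [zero_smul] at hαβ
      exact act_ne_zero ρ g hu hαβ
    exact (by decide : ∀ c : ZMod 3, c ≠ 0 → c * c = 1) α h0
  have hδ : δ * δ = 1 := by
    have h0 : δ ≠ 0 := by
      rintro rfl
      rw [zero_smul] at hγδ
      exact act_ne_zero ρ g hw0 hγδ
    exact (by decide : ∀ c : ZMod 3, c ≠ 0 → c * c = 1) δ h0
  apply S.eq_one_of_fix hi
  · rw [act_mul, hαβ, map_smul, hαβ, smul_smul, hα, one_smul]
  · rw [act_mul, hγδ, map_smul, hγδ, smul_smul, hδ, one_smul]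

theorem Setup.neg_of_sq (S : Setup ρ) {g : G} (h1 : g * g ≠ 1) (h2 : (g * g) * (g * g) = 1)
    (x : V) : ρ (g * g) x = -x :=
  neg_of_no_fix h2 (fun _ hu hfix => h1 (S.sq_of_comm hu h2 h1 hfix (mul_assoc g g g).symm)) x

end Grp


section Final

variable {V : Type*} [AddCommGroup V] [Module (ZMod 3) V] [Finite V]
  {G : Type*} [Group G] [Finite G] {ρ : G →* (V ≃ₗ[ZMod 3] V)}

omit [Finite G] in
theorem Setup.vec (S : Setup ρ) : ∃ v : V, v ≠ 0 := by
  have : Nontrivial V := by
    apply (Finite.one_lt_card_iff_nontrivial).mp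
    rw [S.card]; norm_num
  exact exists_ne (0 : V)

theorem exists_gen_of_card_two (H : Subgroup G) (hH : Nat.card H = 2) :
    ∃ g : G, g ≠ 1 ∧ g * g = 1 ∧ H = Subgroup.zpowers g := by
  have hex : ∃ g ∈ H, g ≠ 1 := by
    by_contra hcon
    push Not at hcon
    have : H = ⊥ := (Subgroup.eq_bot_iff_forall H).mpr hcon
    rw [this, Subgroup.card_bot] at hH
    omega
  obtain ⟨g, hgH, hg1⟩ := hex
  have hord : orderOf g ∣ 2 := by rw [← hH]; exact Subgroup.orderOf_dvd_natCard H hgH
  have hg2 : g ^ 2 = 1 := orderOf_dvd_iff_pow_eq_one.mp hord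
  have hord2 : orderOf g = 2 := orderOf_eq_prime hg2 hg1
  refine ⟨g, hg1, by rw [← pow_two]; exact hg2, ?_⟩
  symm
  apply Subgroup.eq_of_le_of_card_ge
  · rw [Subgroup.zpowers_le]; exact hgH
  · rw [Nat.card_zpowers, hord2, hH]

theorem Setup.card_eight (S : Setup ρ) (h8 : Nat.card G = 8) :
    IsCyclic G ∨ Nonempty (G ≃* QuaternionGroup 2) := by
  have hstab : ∀ u : V, u ≠ 0 → ∀ g : G, ρ g u = u → g = 1 := by
    intro u hu g hg
    have h1 := card_eq_mul_stab ρ S.trans hu
    rw [h8, S.card] at h1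
    have h2 : Nat.card (stab ρ u) = 1 := by omega
    have h3 := Subgroup.eq_bot_of_card_eq _ h2
    have h4 : g ∈ stab ρ u := hg
    rw [h3] at h4
    exact Subgroup.mem_bot.mp h4
  have hneg : ∀ g : G, g ≠ 1 → g * g = 1 → ∀ x, ρ g x = -x := by
    intro g hg1 hgg
    exact neg_of_no_fix hgg (fun u hu hfix => hg1 (hstab u hu g hfix))
  have huniq : ∀ H K : Subgroup G, Nat.card H = 2 → Nat.card K = 2 → H = K := by
    intro H K hH hK
    obtain ⟨g, hg1, hgg, rfl⟩ := exists_gen_of_card_two H hH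
    obtain ⟨k, hk1, hkk, rfl⟩ := exists_gen_of_card_two K hK
    have : g = k := eq_of_act_eq ρ S.inj (fun x => by rw [hneg g hg1 hgg, hneg k hk1 hkk])
    rw [this]
  rcases Cfsg.Agent.S0016.result 2 S.two huniq with hc | ⟨_, n, ⟨e⟩⟩
  · exact Or.inl hc
  · right
    have h1 : Nat.card G = 4 * 2 ^ n := by
      rw [Nat.card_congr e.toEquiv, Nat.card_eq_fintype_card, QuaternionGroup.card]
    have h2 : 2 ^ n = 2 := by omega
    rw [h2] at e
    exact ⟨e⟩

theorem Setup.exists_stab_ne_one (S : Setup ρ) (h16 : Nat.card G = 16) {v : V} (hv : v ≠ 0) :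
    ∃ t : G, ρ t v = v ∧ t ≠ 1 ∧ t * t = 1 := by
  have h1 := card_eq_mul_stab ρ S.trans hv
  rw [h16, S.card] at h1
  have h2 : Nat.card (stab ρ v) = 2 := by omega
  have hex : ∃ g ∈ stab ρ v, g ≠ 1 := by
    by_contra hcon
    push Not at hcon
    have : stab ρ v = ⊥ := (Subgroup.eq_bot_iff_forall _).mpr hcon
    rw [this, Subgroup.card_bot] at h2
    omega
  obtain ⟨t, ht, ht1⟩ := hex
  exact ⟨t, ht, ht1, S.sq_of_fix hv ht⟩

theorem Setup.exists_pow_four_ne (S : Setup ρ) (h16 : Nat.card G = 16) :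
    ∃ x : G, (x * x) * (x * x) ≠ 1 := by
  by_contra hcon
  push Not at hcon
  have hsq : ∀ g : G, (∀ y, ρ (g * g) y = y) ∨ (∀ y, ρ (g * g) y = -y) := by
    intro g
    by_cases h1 : g * g = 1
    · left; intro y; rw [h1, act_one]
    · right; exact S.neg_of_sq h1 (hcon g)
  obtain ⟨v, hv⟩ := S.vec
  obtain ⟨t, ht, ht1, htt⟩ := S.exists_stab_ne_one h16 hv
  obtain ⟨w, hw0, hw⟩ := S.exists_neg_eig hv ht ht1 htt
  have hi : Indep v w := indep_of_eig hv hw0 ht hw
  have hvw : v + w ≠ 0 := fun h0 => hi.2.2.2 (eq_neg_of_add_eq_zero_right h0)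
  obtain ⟨g, hg⟩ := S.trans v (v + w) hv hvw
  have ht' : ρ t (v + w) = v - w := by rw [map_add, ht, hw]; abel
  have key : ρ (g * g) (v - w) = ρ g (ρ (g * t * (g * t)) v) := by
    have h1 : ρ (g * t * (g * t)) v = ρ g (v - w) := by
      simp only [act_mul, ht, hg, ht']
    rw [h1, act_mul]
  rcases hsq g with h1 | h1 <;> rcases hsq (g * t) with h2 | h2 <;> rw [h1, h2] at key
  · rw [hg] at key
    exact hw0 (eq_zero_of_eq_neg (by linear_combination (norm := module) (-1 : ℤ) • key))
  · rw [map_neg, hg] at key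
    exact hv (eq_zero_of_eq_neg (by linear_combination (norm := module) key))
  · rw [hg] at key
    exact hv (eq_zero_of_eq_neg (by linear_combination (norm := module) (-1 : ℤ) • key))
  · rw [map_neg, hg] at key
    exact hw0 (eq_zero_of_eq_neg (by linear_combination (norm := module) key))

theorem Setup.exists_order_eight (S : Setup ρ) (h16 : Nat.card G = 16) :
    ∃ x : G, ∀ y, ρ (x * x * (x * x)) y = -y := by
  obtain ⟨x0, hx0⟩ := S.exists_pow_four_ne h16
  have h16' : x0 ^ 16 = 1 := by rw [← h16]; exact pow_card_eq_one'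
  by_cases h8 : (x0 * x0 * (x0 * x0)) * (x0 * x0 * (x0 * x0)) = 1
  · exact ⟨x0, S.neg_of_sq (g := x0 * x0) hx0 h8⟩
  · refine ⟨x0 * x0, S.neg_of_sq (g := x0 * x0 * (x0 * x0)) h8 ?_⟩
    have e : x0 * x0 * (x0 * x0) * (x0 * x0 * (x0 * x0)) *
        (x0 * x0 * (x0 * x0) * (x0 * x0 * (x0 * x0))) = x0 ^ 16 := by
      simp [pow_succ, mul_assoc]
    rw [e, h16']

theorem Setup.quasi (S : Setup ρ) (h16 : Nat.card G = 16) : Cfsg.IsQuasiDihedral G := by
  obtain ⟨x, hx⟩ := S.exists_order_eight h16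
  obtain ⟨v, hv⟩ := S.vec
  obtain ⟨t, ht, ht1, htt⟩ := S.exists_stab_ne_one h16 hv
  have hX4 : ∀ y, ρ x (ρ x (ρ x (ρ x y))) = -y := by
    intro y
    have h1 := hx y
    simpa only [act_mul] using h1
  have hx4 : x ^ 4 ≠ 1 := by
    intro h
    have e : x * x * (x * x) = x ^ 4 := by simp [pow_succ, mul_assoc]
    have h1 := hx v
    rw [e, h, act_one] at h1
    exact hv (eq_zero_of_eq_neg h1)
  have hx8 : x ^ 8 = 1 := by
    have e : x ^ 8 = x * x * (x * x) * (x * x * (x * x)) := by simp [pow_succ, mul_assoc]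
    rw [e]
    apply eq_of_act_eq ρ S.inj
    intro y
    rw [act_mul, hx, hx, neg_neg, act_one]
  have hord : orderOf x = 8 := by
    have h1 := orderOf_eq_prime_pow (p := 2) (n := 2) (x := x) (by norm_num; exact hx4)
      (by norm_num; exact hx8)
    simpa using h1
  have hordt : orderOf t = 2 := orderOf_eq_prime (by rw [pow_two]; exact htt) ht1
  have hnofix : ¬ (ρ x v = v ∨ ρ x v = -v) := by
    intro h
    have h1 : ρ (x * x) v = v := by
      rcases h with h | h
      · rw [act_mul, h, h]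
      · rw [act_mul, h, map_neg, h, neg_neg]
    have h2 := S.sq_of_fix hv h1
    have h3 := hx v
    rw [h2, act_one] at h3
    exact hv (eq_zero_of_eq_neg h3)
  have hcomm : ∀ g : G, g * t = t * g → g * g = 1 :=
    fun g hc => S.sq_of_comm hv htt ht1 ht hc
  have hidx : (Subgroup.zpowers x).index = 2 := by
    have h1 := Subgroup.card_mul_index (Subgroup.zpowers x)
    rw [Nat.card_zpowers, hord, h16] at h1
    omega
  have hN := Subgroup.normal_of_index_eq_two hidx
  have hmem : t * x * t⁻¹ ∈ Subgroup.zpowers x := hN.conj_mem x (Subgroup.mem_zpowers x) t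
  obtain ⟨k, hk8, hk⟩ : ∃ k < 8, x ^ k = t * x * t⁻¹ := by
    rw [← mem_powers_iff_mem_zpowers] at hmem
    obtain ⟨n, hn⟩ := (Submonoid.mem_powers_iff _ _).mp hmem
    refine ⟨n % 8, Nat.mod_lt _ (by norm_num), ?_⟩
    rw [← hn, ← hord, pow_mod_orderOf]
  have heven : ∀ k, (x ^ k) ^ 4 = 1 → x ^ k ≠ t * x * t⁻¹ := by
    intro k h4 hk'
    rw [hk', conj_pow] at h4
    exact hx4 (conj_eq_one_iff.mp h4)
  refine ⟨3, le_refl 3, by rw [h16]; norm_num, x, t, by rw [hord]; norm_num, hordt, ?_⟩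
  show t * x * t⁻¹ = x ^ 3
  interval_cases k
  · exact absurd hk (heven 0 (by simp))
  · -- k = 1
    exfalso
    rw [pow_one] at hk
    have hc : x * t = t * x := by
      calc x * t = (t * x * t⁻¹) * t := by rw [← hk]
        _ = t * x := by group
    have h1 := hcomm x hc
    apply hx4
    have e : x ^ 4 = x * x * (x * x) := by simp [pow_succ, mul_assoc]
    rw [e, h1, mul_one]
  · exact absurd hk (heven 2 (by rw [← pow_mul]; exact hx8))
  · exact hk.symm
  · exact absurd hk (heven 4 (by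
      rw [← pow_mul]; show x ^ (8 * 2) = 1; rw [pow_mul, hx8, one_pow]))
  · -- k = 5
    exfalso
    have e : t * (x * x) * t⁻¹ = x * x := by
      calc t * (x * x) * t⁻¹ = (t * x * t⁻¹) * (t * x * t⁻¹) := by group
        _ = x ^ 5 * x ^ 5 := by rw [← hk]
        _ = x ^ 8 * (x * x) := by simp [pow_succ, mul_assoc]
        _ = x * x := by rw [hx8, one_mul]
    have hc : x * x * t = t * (x * x) := by
      calc x * x * t = (t * (x * x) * t⁻¹) * t := by rw [e]
        _ = t * (x * x) := by group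
    have h1 := hcomm (x * x) hc
    apply hx4
    have e' : x ^ 4 = x * x * (x * x) := by simp [pow_succ, mul_assoc]
    rw [e', h1]
  · exact absurd hk (heven 6 (by
      rw [← pow_mul]; show x ^ (8 * 3) = 1; rw [pow_mul, hx8, one_pow]))
  · -- k = 7
    exfalso
    have hxtx : x * t * x = t := by
      calc x * t * x = x * (t * x * t⁻¹) * t := by group
        _ = x * x ^ 7 * t := by rw [← hk]
        _ = x ^ 8 * t := by simp [pow_succ, mul_assoc]
        _ = t := by rw [hx8, one_mul]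
    have e1 : x * x * t * (x * x) = t := by
      calc x * x * t * (x * x) = x * (x * t * x) * x := by group
        _ = t := by rw [hxtx, hxtx]
    obtain ⟨y, hy⟩ : ∃ y, y = ρ x (ρ x v) := ⟨_, rfl⟩
    have hy0 : y ≠ 0 := by rw [hy]; exact act_ne_zero ρ x (act_ne_zero ρ x hv)
    have e2 : ρ x (ρ x (ρ t y)) = v := by
      have h1 : ρ (x * x * t * (x * x)) v = v := by rw [e1, ht]
      rw [hy]
      simpa only [act_mul] using h1
    have hty : ρ t y = -y := by
      have h1 := hX4 (ρ t y)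
      rw [e2, ← hy] at h1
      exact (neg_eq_iff_eq_neg.mpr h1).symm
    have hi : Indep v y := indep_of_eig hv hy0 ht hty
    obtain ⟨a, b, hab⟩ := hi.coords S.card (ρ x v)
    have hxy : ρ x y = a • y - b • v := by
      have h1 : ρ x y = ρ x (ρ x (a • v + b • y)) := by rw [← hab, hy]
      have h2 : ρ x (ρ x y) = -v := by rw [hy]; exact hX4 v
      rw [h1, map_add, map_smul, map_smul, map_add, map_smul, map_smul, ← hy, h2]
      module
    have h3 : ρ x (ρ t (ρ x v)) = v := by
      have h1 : ρ (x * t * x) v = v := by rw [hxtx, ht]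
      simpa only [act_mul] using h1
    have h3' : ρ x (ρ t (ρ x v)) = (a * a + b * b) • v + (0 : ZMod 3) • y := by
      rw [hab, map_add, map_smul, map_smul, ht, hty, map_add, map_smul, map_smul, map_neg,
        hab, hxy]
      module
    have h4 : (a * a + b * b) • v + (0 : ZMod 3) • y = (1 : ZMod 3) • v + (0 : ZMod 3) • y := by
      rw [← h3', h3]; module
    have h5 : a * a + b * b = 1 := (hi.eq h4).1
    rcases (by decide : ∀ a b : ZMod 3, a * a + b * b = 1 →
        (b = 0 ∧ (a = 1 ∨ a = -1)) ∨ (a = 0 ∧ (b = 1 ∨ b = -1))) a b h5 with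
      ⟨rfl, rfl | rfl⟩ | ⟨rfl, rfl | rfl⟩
    · apply hnofix; left; rw [hab]; module
    · apply hnofix; right; rw [hab]; module
    · apply hnofix; left
      have h6 : ρ x v = ρ x (ρ x v) := by rw [← hy, hab]; module
      exact ((ρ x).injective h6).symm
    · apply hnofix; right
      have h6 : ρ x (-v) = ρ x (ρ x v) := by rw [map_neg, ← hy, hab]; module
      exact ((ρ x).injective h6).symm

theorem Setup.main (S : Setup ρ) :
    (IsCyclic G ∧ Nat.card G = 8) ∨ Nonempty (G ≃* QuaternionGroup 2) ∨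
      (Cfsg.IsQuasiDihedral G ∧ Nat.card G = 16) := by
  obtain ⟨v, hv⟩ := S.vec
  have h1 := card_eq_mul_stab ρ S.trans hv
  rw [S.card] at h1
  norm_num at h1
  have h2 := S.card_stab_le hv
  have h3 : 0 < Nat.card (stab ρ v) := Nat.card_pos
  have h4 : Nat.card G = 8 ∨ Nat.card G = 16 := by omega
  rcases h4 with h8 | h16
  · rcases S.card_eight h8 with hc | hq
    · exact Or.inl ⟨hc, h8⟩
    · exact Or.inr (Or.inl hq)
  · exact Or.inr (Or.inr ⟨S.quasi h16, h16⟩)

end Final


/-- a `p`-group acting faithfully on a finite `𝔽_q`-space, transitively on the non-zero vectors -/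
theorem main_thm (q : ℕ) [Fact q.Prime] {V : Type*} [AddCommGroup V] [Module (ZMod q) V]
    [Finite V] [Nontrivial V] {G : Type*} [Group G] [Finite G] [Nontrivial G] (p : ℕ)
    [Fact p.Prime] (hG : IsPGroup p G) (ρ : G →* (V ≃ₗ[ZMod q] V)) (hρ : Function.Injective ρ)
    (htrans : ∀ v w : V, v ≠ 0 → w ≠ 0 → ∃ g : G, ρ g v = w) :
    (q = 2 ∧ p = Nat.card V - 1 ∧ Nat.card G = p) ∨
    (p = 2 ∧ Nat.card V = q ∧ (∃ m : ℕ, q = 2 ^ m + 1 ∧ Nat.card G = 2 ^ m) ∧ IsCyclic G) ∨
    (p = 2 ∧ q = 3 ∧ Nat.card V = 9 ∧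
      ((IsCyclic G ∧ Nat.card G = 8) ∨ Nonempty (G ≃* QuaternionGroup 2) ∨
        (Cfsg.IsQuasiDihedral G ∧ Nat.card G = 16))) := by
  have hq : q.Prime := Fact.out
  have hp : p.Prime := Fact.out
  obtain ⟨v, hv⟩ := exists_ne (0 : V)
  obtain ⟨n, hn⟩ : ∃ n, Nat.card V = q ^ n := ⟨_, by
    have h1 := Module.natCard_eq_pow_finrank (K := ZMod q) (V := V)
    rwa [Nat.card_zmod] at h1⟩
  have hV1 : 1 < Nat.card V := Finite.one_lt_card
  have hG1 : 1 < Nat.card G := Finite.one_lt_card
  have hn1 : 1 ≤ n := by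
    by_contra h
    have h0 : n = 0 := by omega
    rw [h0, pow_zero] at hn
    omega
  obtain ⟨k, hk⟩ := IsPGroup.iff_card.mp hG
  have hmul := card_eq_mul_stab ρ htrans hv
  have hdvd : Nat.card V - 1 ∣ p ^ k := by rw [← hk, hmul]; exact dvd_mul_right _ _
  obtain ⟨j, _, hj⟩ := (Nat.dvd_prime_pow hp).mp hdvd
  have hj1 : 1 ≤ j := by
    by_contra h
    have h0 : j = 0 := by omega
    rw [h0, pow_zero] at hj
    have hV2 : Nat.card V = 2 := by omega
    obtain ⟨y, hy, huni⟩ := (Nat.card_eq_two_iff' (0 : V)).mp hV2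
    have hall : ∀ g : G, g = 1 := by
      intro g
      apply eq_of_act_eq ρ hρ
      intro x
      rw [act_one]
      by_cases hx : x = 0
      · rw [hx, map_zero]
      · have e1 := huni x hx
        have e2 := huni (ρ g y) (act_ne_zero ρ g hy)
        rw [e1, e2]
    obtain ⟨g, hg⟩ := exists_ne (1 : G)
    exact hg (hall g)
  by_cases hq2 : q = 2
  · left
    refine ⟨hq2, ?_⟩
    have hj' : j = 1 := nt_two n j p hp hj1 (by rw [← hj, hn, hq2])
    rw [hj', pow_one] at hj
    refine ⟨hj.symm, ?_⟩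
    have hk0 : k ≠ 0 := by
      rintro rfl
      rw [pow_zero] at hk
      omega
    have hidx : (stab ρ v).index = p := by
      have h1 := Subgroup.card_mul_index (stab ρ v)
      rw [hmul, hj] at h1
      have hpos : 0 < Nat.card (stab ρ v) := Nat.card_pos
      rw [mul_comm] at h1
      exact Nat.eq_of_mul_eq_mul_right hpos h1
    have hN : (stab ρ v).Normal := by
      apply Subgroup.normal_of_index_eq_minFac_card
      rw [hidx, hk, hp.pow_minFac hk0]
    have hbot : stab ρ v = ⊥ := by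
      rw [Subgroup.eq_bot_iff_forall]
      intro h hh
      apply eq_of_act_eq ρ hρ
      intro x
      rw [act_one]
      by_cases hx : x = 0
      · rw [hx, map_zero]
      · obtain ⟨g, hg⟩ := htrans v x hv hx
        have h1 : g⁻¹ * h * g ∈ stab ρ v := by
          have h0 := hN.conj_mem h hh g⁻¹
          rwa [inv_inv] at h0
        have h2 : ρ (g⁻¹ * h * g) v = v := h1
        rw [act_mul, act_mul, hg] at h2
        have h3 : ρ g (ρ g⁻¹ (ρ h x)) = ρ h x := by
          rw [← act_mul, mul_inv_cancel, act_one]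
        rw [h2, hg] at h3
        exact h3.symm
    rw [hmul, hj, hbot, Subgroup.card_bot, mul_one]
  · have hp2 : p = 2 := by
      have hodd : Odd (q ^ n) := (hq.odd_of_ne_two hq2).pow
      have heven : Even (p ^ j) := by
        rw [← hj, hn]
        obtain ⟨m, hm⟩ := hodd
        exact ⟨m, by omega⟩
      have h1 : Even p := (Nat.even_pow.mp heven).1
      exact (Nat.Prime.even_iff hp).mp h1
    subst hp2
    right
    rcases nt_odd q n j hq hq2 hn1 (by rw [← hj, hn]) with h1 | ⟨h3, h2⟩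
    · left
      rw [h1, pow_one] at hn
      have hφ : Function.Bijective (fun c : ZMod q => c • v) := by
        apply Function.Injective.bijective_of_nat_card_le (smul_left_injective (ZMod q) hv)
        rw [Nat.card_zmod, hn]
      have hstab : stab ρ v = ⊥ := by
        rw [Subgroup.eq_bot_iff_forall]
        intro h hh
        apply eq_of_act_eq ρ hρ
        intro x
        obtain ⟨c, rfl⟩ := hφ.2 x
        show ρ h (c • v) = ρ 1 (c • v)
        have hh' : ρ h v = v := hh
        rw [map_smul, act_one, hh']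
      have hcard : Nat.card G = 2 ^ j := by
        rw [hmul, hj, hstab, Subgroup.card_bot, mul_one]
      refine ⟨rfl, hn, ⟨j, ?_, hcard⟩, ?_⟩
      · rw [hn] at hj
        have := hq.pos
        omega
      · choose f hf using fun g : G => hφ.2 (ρ g v)
        have hf' : ∀ g, f g • v = ρ g v := hf
        let F : G →* ZMod q :=
          { toFun := f
            map_one' := by
              apply hφ.1
              show f 1 • v = (1 : ZMod q) • v
              rw [hf', act_one, one_smul]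
            map_mul' := by
              intro a b
              apply hφ.1
              show f (a * b) • v = (f a * f b) • v
              rw [hf', act_mul, ← hf' b, map_smul, ← hf' a, smul_smul, mul_comm] }
        apply isCyclic_of_injective_ringHom F
        intro a b hab
        have hab' : f a = f b := hab
        apply eq_of_act_eq ρ hρ
        intro x
        obtain ⟨c, rfl⟩ := hφ.2 x
        show ρ a (c • v) = ρ b (c • v)
        rw [map_smul, map_smul, ← hf' a, ← hf' b, hab']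
    · right
      subst h3
      rw [h2] at hn
      have hV9 : Nat.card V = 9 := by rw [hn]; norm_num
      exact ⟨rfl, rfl, hV9, (Setup.mk hV9 hρ hG htrans).main⟩

end Cfsg.Agent.Lib.Helper66.TV
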