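import Mathlib
import Cfsg.Agent.S0519
import Cfsg.Agent.S0016
import Cfsg.Agent.Lib.Helper53.PGroups

set_option autoImplicit false

namespace Cfsg.Agent.Lib.Helper66.Imprim

section Lin

variable {q : ℕ} {V : Type*} [AddCommGroup V] [Module (ZMod q) V] {G : Type*} [Group G]

/-- The fixed space of `u`. -/
def fixSub (ρ : G →* (V ≃ₗ[ZMod q] V)) (u : G) : Submodule (ZMod q) V where
  carrier := {v | ρ u v = v}
  add_mem' := by
    intro a b ha hb
    show ρ u (a + b) = a + b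
    rw [map_add, show ρ u a = a from ha, show ρ u b = b from hb]
  zero_mem' := map_zero _
  smul_mem' := by
    intro c v hv
    show ρ u (c • v) = c • v
    rw [map_smul, show ρ u v = v from hv]

theorem mem_fixSub {ρ : G →* (V ≃ₗ[ZMod q] V)} {u : G} {v : V} :
    v ∈ fixSub ρ u ↔ ρ u v = v := Iff.rfl

theorem act_mul (ρ : G →* (V ≃ₗ[ZMod q] V)) (g h : G) (v : V) : ρ (g * h) v = ρ g (ρ h v) := by
  rw [map_mul]
  rfl

theorem act_one (ρ : G →* (V ≃ₗ[ZMod q] V)) (v : V) : ρ 1 v = v := by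
  rw [map_one]
  rfl

theorem act_pow_fixed (ρ : G →* (V ≃ₗ[ZMod q] V)) {u : G} {v : V} (h : ρ u v = v) (k : ℕ) :
    ρ (u ^ k) v = v := by
  induction k with
  | zero => rw [pow_zero, act_one]
  | succ k ih => rw [pow_succ, act_mul, h, ih]

theorem map_fixSub (ρ : G →* (V ≃ₗ[ZMod q] V)) (g u : G) :
    (fixSub ρ u).map (ρ g : V →ₗ[ZMod q] V) = fixSub ρ (g * u * g⁻¹) := by
  ext v
  rw [Submodule.mem_map, mem_fixSub]
  constructor
  · rintro ⟨v₀, hv₀, rfl⟩
    rw [mem_fixSub] at hv₀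
    show ρ (g * u * g⁻¹) (ρ g v₀) = ρ g v₀
    rw [← act_mul, show g * u * g⁻¹ * g = g * u by group, act_mul, hv₀]
  · intro hv
    refine ⟨ρ g⁻¹ v, ?_, ?_⟩
    · rw [mem_fixSub, ← act_mul, show u * g⁻¹ = g⁻¹ * (g * u * g⁻¹) by group, act_mul, hv]
    · show ρ g (ρ g⁻¹ v) = v
      rw [← act_mul, mul_inv_cancel, act_one]

/-- The norm map `v ↦ ∑_{k < n} u^k v`. -/
def nrm (ρ : G →* (V ≃ₗ[ZMod q] V)) (n : ℕ) (u : G) : V →ₗ[ZMod q] V :=
  ∑ k ∈ Finset.range n, (ρ (u ^ k) : V →ₗ[ZMod q] V)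

theorem nrm_apply (ρ : G →* (V ≃ₗ[ZMod q] V)) (n : ℕ) (u : G) (v : V) :
    nrm ρ n u v = ∑ k ∈ Finset.range n, ρ (u ^ k) v := by
  simp [nrm, LinearMap.sum_apply]

theorem nrm_mem_fixSub (ρ : G →* (V ≃ₗ[ZMod q] V)) {n : ℕ} {u : G} (hu : u ^ n = 1) (v : V) :
    nrm ρ n u v ∈ fixSub ρ u := by
  rw [mem_fixSub, nrm_apply, map_sum]
  have h1 : ∑ k ∈ Finset.range n, ρ u (ρ (u ^ k) v) = ∑ k ∈ Finset.range n, ρ (u ^ (k + 1)) v := by
    apply Finset.sum_congr rfl
    intro k _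
    rw [← act_mul, ← pow_succ']
  rw [h1]
  have h2 := Finset.sum_range_succ (fun k => ρ (u ^ k) v) n
  have h3 := Finset.sum_range_succ' (fun k => ρ (u ^ k) v) n
  rw [h2] at h3
  simp only [hu, pow_zero] at h3
  exact (add_right_cancel h3).symm

theorem nrm_of_fixed (ρ : G →* (V ≃ₗ[ZMod q] V)) (n : ℕ) {u : G} {v : V} (h : ρ u v = v) :
    nrm ρ n u v = n • v := by
  rw [nrm_apply, Finset.sum_congr rfl (fun k _ => act_pow_fixed ρ h k), Finset.sum_const,
    Finset.card_range]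

end Lin


section Main

variable {q : ℕ} [Fact q.Prime] {V : Type*} [AddCommGroup V] [Module (ZMod q) V] {G : Type*} [Group G]

open Fin.NatCast in
theorem imprim_aux [Finite G] [Nontrivial V] {p : ℕ} [Fact p.Prime]
    (ρ : G →* (V ≃ₗ[ZMod q] V)) (hρ : Function.Injective ρ)
    (hirr : ∀ W : Submodule (ZMod q) V, (∀ g : G, ∀ w ∈ W, ρ g w ∈ W) → W = ⊥ ∨ W = ⊤)
    (hpq : ∀ v : V, p • v = 0 → v = 0)
    (z₀ w : G) (hz₀c : z₀ ∈ Subgroup.center G) (hz₀1 : z₀ ≠ 1) (hz₀p : z₀ ^ p = 1) (hwp : w ^ p = 1)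
    (hw : w ∉ Subgroup.zpowers z₀) (hconj : ∀ y : G, w⁻¹ * (y * w * y⁻¹) ∈ Subgroup.zpowers z₀) :
    ∃ (H : Subgroup G) (W : Fin p → Submodule (ZMod q) V), H.index = p ∧
      iSup W = ⊤ ∧ iSupIndep W ∧
      (∀ h ∈ H, ∀ i, ∀ w ∈ W i, ρ h w ∈ W i) ∧
      (∀ i, ∃ h ∈ H, h ≠ 1 ∧ ∀ w ∈ W i, ρ h w = w) ∧
      ∀ g : G, g ∉ H → ∃ σ : Equiv.Perm (Fin p), orderOf σ = p ∧
        ∀ i, (W i).map (ρ g : V →ₗ[ZMod q] V) = W (σ i) := by
  classical
  have hp : p.Prime := Fact.out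
  obtain ⟨n, rfl⟩ : ∃ n, p = n + 1 := ⟨p - 1, by have := hp.pos; omega⟩
  have hzc : ∀ g : G, g * z₀ = z₀ * g := fun g => Subgroup.mem_center_iff.mp hz₀c g
  have hzle : Subgroup.zpowers z₀ ≤ Subgroup.center G := Subgroup.zpowers_le.mpr hz₀c
  have hz₀o : orderOf z₀ = n + 1 := orderOf_eq_prime hz₀p hz₀1
  have hcent : ∀ c : G, c ∈ Subgroup.center G → c ≠ 1 → fixSub ρ c = ⊥ := by
    intro c hc hc1
    rcases hirr (fixSub ρ c) (by
      intro g v hv
      rw [mem_fixSub] at hv ⊢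
      rw [← act_mul, ← Subgroup.mem_center_iff.mp hc g, act_mul, hv]) with h | h
    · exact h
    · exfalso
      apply hc1
      apply hρ
      ext v
      have h1 : v ∈ fixSub ρ c := by
        rw [h]
        exact Submodule.mem_top
      rw [map_one]
      exact h1
  have hnrm0 : ∀ c : G, c ∈ Subgroup.center G → c ≠ 1 → c ^ (n + 1) = 1 →
      ∀ v, nrm ρ (n + 1) c v = 0 := by
    intro c hc hc1 hcp v
    have h1 := nrm_mem_fixSub ρ hcp v
    rw [hcent c hc hc1, Submodule.mem_bot] at h1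
    exact h1
  have hwz : ∀ k : ℕ, Commute w (z₀ ^ k) := fun k => Commute.pow_right (hzc w) k
  have hup : ∀ i : ℕ, (w * z₀ ^ i) ^ (n + 1) = 1 := by
    intro i
    rw [(hwz i).mul_pow, hwp, ← pow_mul, mul_comm, pow_mul, hz₀p, one_pow, mul_one]
  have hkey : ∀ v : V, ∑ i ∈ Finset.range (n + 1), nrm ρ (n + 1) (w * z₀ ^ i) v = (n + 1) • v := by
    intro v
    have h1 : ∀ i ∈ Finset.range (n + 1), nrm ρ (n + 1) (w * z₀ ^ i) v
        = ∑ k ∈ Finset.range (n + 1), ρ (w ^ k) (ρ ((z₀ ^ k) ^ i) v) := by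
      intro i _
      rw [nrm_apply]
      apply Finset.sum_congr rfl
      intro k _
      rw [(hwz i).mul_pow, act_mul, ← pow_mul, ← pow_mul, mul_comm i k]
    rw [Finset.sum_congr rfl h1, Finset.sum_comm]
    have h2 : ∀ k ∈ Finset.range (n + 1),
        ∑ i ∈ Finset.range (n + 1), ρ (w ^ k) (ρ ((z₀ ^ k) ^ i) v)
          = ρ (w ^ k) (nrm ρ (n + 1) (z₀ ^ k) v) := by
      intro k _
      rw [nrm_apply, map_sum]
    rw [Finset.sum_congr rfl h2, Finset.sum_eq_single 0]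
    · rw [pow_zero, pow_zero, act_one, nrm_of_fixed ρ (n + 1) (act_one ρ v)]
    · intro k hk hk0
      have hk' := Finset.mem_range.mp hk
      have hc1 : z₀ ^ k ≠ 1 := by
        intro h
        have h3 := orderOf_dvd_of_pow_eq_one h
        rw [hz₀o] at h3
        exact hk0 (Nat.eq_zero_of_dvd_of_lt h3 hk')
      rw [hnrm0 (z₀ ^ k) (pow_mem hz₀c k) hc1
        (by rw [← pow_mul, mul_comm, pow_mul, hz₀p, one_pow]) v, map_zero]
    · intro h0
      exact absurd (Finset.mem_range.mpr (Nat.succ_pos n)) h0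
  have hφmul : ∀ a b : G, w⁻¹ * (a * b * w * (a * b)⁻¹)
      = w⁻¹ * (a * w * a⁻¹) * (w⁻¹ * (b * w * b⁻¹)) := by
    intro a b
    obtain ⟨t, ht⟩ : ∃ t, t = w⁻¹ * (b * w * b⁻¹) := ⟨_, rfl⟩
    have htc : ∀ g : G, g * t = t * g := fun g =>
      Subgroup.mem_center_iff.mp (hzle (ht ▸ hconj b)) g
    rw [← ht]
    have h1 : a * b * w * (a * b)⁻¹ = a * (w * t) * a⁻¹ := by
      rw [ht]
      group
    rw [h1]
    calc w⁻¹ * (a * (w * t) * a⁻¹) = w⁻¹ * (a * w * (t * a⁻¹)) := by group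
      _ = w⁻¹ * (a * w * (a⁻¹ * t)) := by rw [htc a⁻¹]
      _ = w⁻¹ * (a * w * a⁻¹) * t := by group
  obtain ⟨φ, hφ⟩ : ∃ φ : G →* ↥(Subgroup.zpowers z₀),
      ∀ y : G, ((φ y : ↥(Subgroup.zpowers z₀)) : G) = w⁻¹ * (y * w * y⁻¹) :=
    ⟨MonoidHom.mk' (fun y => ⟨w⁻¹ * (y * w * y⁻¹), hconj y⟩)
      (fun a b => Subtype.ext (hφmul a b)), fun y => rfl⟩
  have hker : ∀ y : G, y ∈ φ.ker ↔ y * w = w * y := by
    intro y
    rw [MonoidHom.mem_ker]
    constructor
    · intro h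
      have h2 : w⁻¹ * (y * w * y⁻¹) = 1 := by
        rw [← hφ, h]
        rfl
      calc y * w = w * (w⁻¹ * (y * w * y⁻¹)) * y := by group
        _ = w * y := by rw [h2, mul_one]
    · intro h
      apply Subtype.ext
      rw [hφ, h]
      show w⁻¹ * (w * y * y⁻¹) = 1
      group
  have hpne : ((n + 1 : ℕ) : ZMod q) ≠ 0 := by
    intro h0
    obtain ⟨v', hv'⟩ := exists_ne (0 : V)
    apply hv'
    apply hpq
    rw [← Nat.cast_smul_eq_nsmul (ZMod q), h0, zero_smul]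
  have hidx : φ.ker.index = n + 1 := by
    have h1 : φ.ker.index ∣ n + 1 := by
      rw [Subgroup.index_ker]
      have h2 := Subgroup.card_subgroup_dvd_card φ.range
      rwa [Nat.card_zpowers, hz₀o] at h2
    rcases (Nat.dvd_prime hp).mp h1 with h | h
    · exfalso
      have htop : φ.ker = ⊤ := Subgroup.index_eq_one.mp h
      have hwc : w ∈ Subgroup.center G := by
        rw [Subgroup.mem_center_iff]
        intro g
        exact (hker g).mp (htop ▸ Subgroup.mem_top g)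
      obtain ⟨v, hv⟩ := exists_ne (0 : V)
      apply hv
      apply hpq
      rw [← hkey v]
      apply Finset.sum_eq_zero
      intro i _
      apply hnrm0 (w * z₀ ^ i) (mul_mem hwc (pow_mem hz₀c i)) _ (hup i)
      intro h1
      apply hw
      rw [eq_inv_of_mul_eq_one_left h1]
      exact inv_mem (pow_mem (Subgroup.mem_zpowers z₀) i)
    · exact h
  refine ⟨φ.ker, fun i => fixSub ρ (w * z₀ ^ (i : ℕ)), hidx, ?_, ?_, ?_, ?_, ?_⟩
  · rw [eq_top_iff]
    intro v _
    have h1 : (n + 1) • v ∈ ⨆ i : Fin (n + 1), fixSub ρ (w * z₀ ^ (i : ℕ)) := by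
      rw [← hkey v]
      apply Submodule.sum_mem
      intro i hi
      exact Submodule.mem_iSup_of_mem (⟨i, Finset.mem_range.mp hi⟩ : Fin (n + 1))
        (nrm_mem_fixSub ρ (hup i) v)
    have h2 : v = ((n + 1 : ℕ) : ZMod q)⁻¹ • ((n + 1) • v) := by
      rw [← Nat.cast_smul_eq_nsmul (ZMod q) (n + 1) v, inv_smul_smul₀ hpne]
    rw [h2]
    exact Submodule.smul_mem _ _ h1
  · rw [iSupIndep_def]
    intro i
    rw [Submodule.disjoint_def]
    intro v hvi hvs
    have hle : (⨆ j, ⨆ (_ : j ≠ i), fixSub ρ (w * z₀ ^ (j : ℕ)))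
        ≤ LinearMap.ker (nrm ρ (n + 1) (w * z₀ ^ (i : ℕ))) := by
      apply iSup₂_le
      intro j hji v' hv'
      rw [LinearMap.mem_ker]
      obtain ⟨c, hc⟩ : ∃ c, c = z₀ ^ (i : ℕ) * (z₀ ^ (j : ℕ))⁻¹ := ⟨_, rfl⟩
      have hcc : c ∈ Subgroup.center G := by
        rw [hc]
        exact mul_mem (pow_mem hz₀c _) (inv_mem (pow_mem hz₀c _))
      have hc1 : c ≠ 1 := by
        intro h
        rw [hc, mul_inv_eq_one] at h
        have h3 := (pow_eq_pow_iff_modEq).mp h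
        rw [hz₀o] at h3
        exact hji (Fin.ext (h3.eq_of_lt_of_lt i.2 j.2)).symm
      have hcp : c ^ (n + 1) = 1 := by
        have hcz : c ∈ Subgroup.zpowers z₀ := by
          rw [hc]
          exact mul_mem (pow_mem (Subgroup.mem_zpowers z₀) _)
            (inv_mem (pow_mem (Subgroup.mem_zpowers z₀) _))
        obtain ⟨m, rfl⟩ := Subgroup.mem_zpowers_iff.mp hcz
        rw [← zpow_natCast, ← zpow_mul, mul_comm, zpow_mul, zpow_natCast, hz₀p, one_zpow]
      have hcu : w * z₀ ^ (i : ℕ) = c * (w * z₀ ^ (j : ℕ)) := by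
        have h3 : z₀ ^ (j : ℕ) * (z₀ ^ (i : ℕ) * (z₀ ^ (j : ℕ))⁻¹) = z₀ ^ (i : ℕ) := by
          rw [← mul_assoc, pow_mul_comm, mul_assoc, mul_inv_cancel, mul_one]
        rw [← Subgroup.mem_center_iff.mp hcc (w * z₀ ^ (j : ℕ)), hc, mul_assoc, h3]
      have hcomm : Commute c (w * z₀ ^ (j : ℕ)) :=
        (Subgroup.mem_center_iff.mp hcc (w * z₀ ^ (j : ℕ))).symm
      have h4 : nrm ρ (n + 1) (w * z₀ ^ (i : ℕ)) v' = nrm ρ (n + 1) c v' := by
        rw [nrm_apply, nrm_apply]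
        apply Finset.sum_congr rfl
        intro k _
        rw [hcu, hcomm.mul_pow, act_mul, act_pow_fixed ρ (mem_fixSub.mp hv') k]
      rw [h4]
      exact hnrm0 c hcc hc1 hcp v'
    have h0 : nrm ρ (n + 1) (w * z₀ ^ (i : ℕ)) v = 0 := LinearMap.mem_ker.mp (hle hvs)
    rw [nrm_of_fixed ρ (n + 1) (mem_fixSub.mp hvi)] at h0
    exact hpq v h0
  · intro h hh i v hv
    rw [hker] at hh
    show ρ (w * z₀ ^ (i : ℕ)) (ρ h v) = ρ h v
    have h1 : w * z₀ ^ (i : ℕ) * h = h * (w * z₀ ^ (i : ℕ)) := by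
      rw [mul_assoc, ← (Commute.pow_right (hzc h) _).eq, ← mul_assoc, ← hh, mul_assoc]
    rw [← act_mul, h1, act_mul, mem_fixSub.mp hv]
  · intro i
    refine ⟨w * z₀ ^ (i : ℕ), ?_, ?_, fun v hv => hv⟩
    · rw [hker, mul_assoc, ← (hwz _).eq]
    · intro h1
      apply hw
      rw [eq_inv_of_mul_eq_one_left h1]
      exact inv_mem (pow_mem (Subgroup.mem_zpowers z₀) _)
  · intro g hg
    have hφg : ((φ g : ↥(Subgroup.zpowers z₀)) : G) ∈ Subgroup.zpowers z₀ := (φ g).2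
    obtain ⟨c, hc⟩ := (Submonoid.mem_powers_iff _ _).mp ((mem_powers_iff_mem_zpowers).mpr hφg)
    rw [hφ] at hc
    have hgw : g * w * g⁻¹ = w * z₀ ^ c := by
      rw [hc]
      group
    have hcn : ¬ (n + 1) ∣ c := by
      intro hd
      apply hg
      rw [hker]
      obtain ⟨m, rfl⟩ := hd
      rw [pow_mul, hz₀p, one_pow, mul_one] at hgw
      calc g * w = g * w * g⁻¹ * g := by group
        _ = w * g := by rw [hgw]
    refine ⟨Equiv.addRight ((c : ℕ) : Fin (n + 1)), ?_, ?_⟩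
    · apply orderOf_eq_prime
      · rw [Equiv.nsmul_addRight]
        have h1 : (n + 1) • ((c : ℕ) : Fin (n + 1)) = 0 := by
          have h := card_nsmul_eq_zero (G := Fin (n + 1)) (x := ((c : ℕ) : Fin (n + 1)))
          rwa [Fintype.card_fin] at h
        rw [h1]
        exact Equiv.addRight_zero
      · intro h1
        have h2 := congrArg (fun σ : Equiv.Perm (Fin (n + 1)) => σ 0) h1
        simp only [Equiv.coe_addRight, zero_add, Equiv.Perm.coe_one, id_eq] at h2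
        exact hcn (Fin.natCast_eq_zero.mp h2)
    · intro i
      show (fixSub ρ (w * z₀ ^ (i : ℕ))).map (ρ g : V →ₗ[ZMod q] V)
        = fixSub ρ (w * z₀ ^ ((Equiv.addRight ((c : ℕ) : Fin (n + 1)) i : Fin (n + 1)) : ℕ))
      rw [map_fixSub]
      have h1 : g * (w * z₀ ^ (i : ℕ)) * g⁻¹ = w * z₀ ^ (c + (i : ℕ)) := by
        have h2 : g * (w * z₀ ^ (i : ℕ)) * g⁻¹ = (g * w * g⁻¹) * (g * z₀ ^ (i : ℕ) * g⁻¹) := by
          group
        have h3 : g * z₀ ^ (i : ℕ) * g⁻¹ = z₀ ^ (i : ℕ) := by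
          rw [(Commute.pow_right (hzc g) _).eq, mul_inv_cancel_right]
        rw [h2, h3, hgw, mul_assoc, ← pow_add]
      have h4 : z₀ ^ ((Equiv.addRight ((c : ℕ) : Fin (n + 1)) i : Fin (n + 1)) : ℕ)
          = z₀ ^ (c + (i : ℕ)) := by
        have h5 : ((Equiv.addRight ((c : ℕ) : Fin (n + 1)) i : Fin (n + 1)) : ℕ)
            = ((i : ℕ) + c % (n + 1)) % (n + 1) := by
          simp [Fin.val_add]
        rw [h5, ← pow_eq_pow_mod _ hz₀p, pow_add, ← pow_eq_pow_mod _ hz₀p, ← pow_add, add_comm]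
      rw [h1, h4]

end Main

section GroupPart

theorem exists_central_pair_of_normal_abelian {G : Type*} [Group G] [Finite G] (p : ℕ)
    [Fact p.Prime] (hG : IsPGroup p G) (A : Subgroup G) [hAn : A.Normal]
    (hAc : ∀ a ∈ A, ∀ b ∈ A, a * b = b * a) (hAnc : ¬ IsCyclic A) :
    ∃ z₀ w : G, z₀ ∈ Subgroup.center G ∧ z₀ ≠ 1 ∧ z₀ ^ p = 1 ∧ w ^ p = 1 ∧
      w ∉ Subgroup.zpowers z₀ ∧ ∀ y : G, w⁻¹ * (y * w * y⁻¹) ∈ Subgroup.zpowers z₀ := by
  classical
  have hp : p.Prime := Fact.out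
  -- two independent elements of order dividing p in A
  have hxy : ∃ x y : G, x ∈ A ∧ y ∈ A ∧ x ≠ 1 ∧ x ^ p = 1 ∧ y ^ p = 1 ∧
      y ∉ Subgroup.zpowers x := by
    by_contra hcon
    apply hAnc
    apply Cfsg.Agent.S0016.isCyclic_of_unique (p := p) (hG.to_subgroup A)
    · intro a b
      exact Subtype.ext (hAc a a.2 b b.2)
    · intro x y hx1 hxp hyp
      by_contra hy
      apply hcon
      refine ⟨x, y, x.2, y.2, ?_, ?_, ?_, ?_⟩
      · intro h
        exact hx1 (Subtype.ext h)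
      · have := congrArg Subtype.val hxp
        simpa using this
      · have := congrArg Subtype.val hyp
        simpa using this
      · intro h
        apply hy
        obtain ⟨k, hk⟩ := Subgroup.mem_zpowers_iff.mp h
        rw [Subgroup.mem_zpowers_iff]
        refine ⟨k, Subtype.ext ?_⟩
        rw [← hk]
        simp
  obtain ⟨x, y, hxA, hyA, hx1, hxp, hyp, hyx⟩ := hxy
  -- Ω
  let Ω : Subgroup G :=
    { carrier := {a | a ∈ A ∧ a ^ p = 1}
      mul_mem' := by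
        rintro a b ⟨ha, hap⟩ ⟨hb, hbp⟩
        refine ⟨mul_mem ha hb, ?_⟩
        have hc : Commute a b := hAc a ha b hb
        rw [hc.mul_pow, hap, hbp, one_mul]
      one_mem' := ⟨one_mem A, one_pow p⟩
      inv_mem' := by
        rintro a ⟨ha, hap⟩
        exact ⟨inv_mem ha, by rw [inv_pow, hap, inv_one]⟩ }
  have hΩmem : ∀ a : G, a ∈ Ω ↔ a ∈ A ∧ a ^ p = 1 := fun a => Iff.rfl
  have hΩn : Ω.Normal := by
    constructor
    intro a ha g
    rw [hΩmem] at ha ⊢
    refine ⟨hAn.conj_mem a ha.1 g, ?_⟩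
    rw [conj_pow, ha.2, mul_one, mul_inv_cancel]
  have hΩne : Ω ≠ ⊥ := by
    intro h
    apply hx1
    have : x ∈ Ω := ⟨hxA, hxp⟩
    rw [h, Subgroup.mem_bot] at this
    exact this
  obtain ⟨z₀, hz₀Ω, hz₀1, hz₀c⟩ :=
    Cfsg.Agent.Lib.Helper53.exists_mem_center_of_normal_of_ne_bot hG Ω hΩne
  have hz₀p : z₀ ^ p = 1 := hz₀Ω.2
  have hz₀o : orderOf z₀ = p := orderOf_eq_prime hz₀p hz₀1
  have hNn : (Subgroup.zpowers z₀).Normal := by
    constructor
    intro a ha g
    have hac : a ∈ Subgroup.center G := (Subgroup.zpowers_le.mpr hz₀c) ha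
    rw [Subgroup.mem_center_iff.mp hac g, mul_inv_cancel_right]
    exact ha
  -- an element of Ω outside zpowers z₀
  have hout : ∃ u : G, u ∈ Ω ∧ u ∉ Subgroup.zpowers z₀ := by
    by_cases hx : x ∈ Subgroup.zpowers z₀
    · refine ⟨y, ⟨hyA, hyp⟩, ?_⟩
      intro hy
      apply hyx
      have hle : Subgroup.zpowers x ≤ Subgroup.zpowers z₀ := Subgroup.zpowers_le.mpr hx
      have hcard : Nat.card (Subgroup.zpowers z₀) ≤ Nat.card (Subgroup.zpowers x) := by
        rw [Nat.card_zpowers, Nat.card_zpowers, hz₀o, orderOf_eq_prime hxp hx1]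
      rw [Subgroup.eq_of_le_of_card_ge hle hcard]
      exact hy
    · exact ⟨x, ⟨hxA, hxp⟩, hx⟩
  obtain ⟨u, huΩ, huN⟩ := hout
  have hΩ'n : (Ω.map (QuotientGroup.mk' (Subgroup.zpowers z₀))).Normal :=
    Subgroup.Normal.map hΩn _ (QuotientGroup.mk'_surjective _)
  have hΩ'ne : Ω.map (QuotientGroup.mk' (Subgroup.zpowers z₀)) ≠ ⊥ := by
    intro h
    apply huN
    have h1 : QuotientGroup.mk' (Subgroup.zpowers z₀) u ∈
        Ω.map (QuotientGroup.mk' (Subgroup.zpowers z₀)) := Subgroup.mem_map_of_mem _ huΩ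
    rw [h, Subgroup.mem_bot] at h1
    exact (QuotientGroup.eq_one_iff u).mp h1
  obtain ⟨w', hw'Ω, hw'1, hw'c⟩ :=
    Cfsg.Agent.Lib.Helper53.exists_mem_center_of_normal_of_ne_bot
      (hG.to_quotient (Subgroup.zpowers z₀)) _ hΩ'ne
  obtain ⟨w, hwΩ, rfl⟩ := Subgroup.mem_map.mp hw'Ω
  refine ⟨z₀, w, hz₀c, hz₀1, hz₀p, hwΩ.2, ?_, ?_⟩
  · intro h
    apply hw'1
    exact (QuotientGroup.eq_one_iff w).mpr h
  · intro g
    rw [← QuotientGroup.eq_one_iff]
    have h1 := Subgroup.mem_center_iff.mp hw'c (QuotientGroup.mk' (Subgroup.zpowers z₀) g)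
    have h2 : ((w⁻¹ * (g * w * g⁻¹) : G) : G ⧸ Subgroup.zpowers z₀)
        = (QuotientGroup.mk' (Subgroup.zpowers z₀) w)⁻¹ *
          (QuotientGroup.mk' (Subgroup.zpowers z₀) g * QuotientGroup.mk' (Subgroup.zpowers z₀) w *
            (QuotientGroup.mk' (Subgroup.zpowers z₀) g)⁻¹) := rfl
    rw [h2, h1, mul_inv_cancel_right, inv_mul_cancel]

theorem exists_central_pair {G : Type*} [Group G] [Finite G] (p : ℕ) [Fact p.Prime]
    (hG : IsPGroup p G) (hnc : ¬ IsCyclic G)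
    (hnq : ∀ n, ¬ Nonempty (G ≃* QuaternionGroup n))
    (hnd : ∀ n, ¬ Nonempty (G ≃* DihedralGroup n))
    (hnsd : ¬ Cfsg.IsQuasiDihedral G) :
    ∃ z₀ w : G, z₀ ∈ Subgroup.center G ∧ z₀ ≠ 1 ∧ z₀ ^ p = 1 ∧ w ^ p = 1 ∧
      w ∉ Subgroup.zpowers z₀ ∧ ∀ y : G, w⁻¹ * (y * w * y⁻¹) ∈ Subgroup.zpowers z₀ := by
  classical
  have hp : p.Prime := Fact.out
  have hA : ∃ A : Subgroup G, A.Normal ∧ IsMulCommutative A ∧ ¬ IsCyclic A := by
    by_contra hcon
    have hn : ∀ A : Subgroup G, A.Normal → IsMulCommutative A → IsCyclic A := by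
      intro A hA1 hA2
      by_contra h
      exact hcon ⟨A, hA1, hA2, h⟩
    by_cases hm : ∃ B : Subgroup G, IsMulCommutative B ∧ ¬ IsCyclic B
    · obtain ⟨-, h | h | h⟩ := Cfsg.Agent.S0519.result p hG hn hm
      · obtain ⟨n, hn'⟩ := h
        exact hnq n hn'
      · obtain ⟨n, -, hn'⟩ := h
        exact hnd n hn'
      · exact hnsd h
    · have hm' : ∀ B : Subgroup G, IsMulCommutative B → IsCyclic B := by
        intro B hB
        by_contra h
        exact hm ⟨B, hB, h⟩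
      have hnt : Nontrivial G := by
        by_contra h
        rw [not_nontrivial_iff_subsingleton] at h
        exact hnc inferInstance
      have hcn : Nontrivial (Subgroup.center G) := hG.center_nontrivial
      have hdvd : p ∣ Nat.card (Subgroup.center G) := by
        obtain ⟨k, hk⟩ := (IsPGroup.iff_card.mp (hG.to_subgroup (Subgroup.center G)))
        rw [hk]
        have hk0 : k ≠ 0 := by
          rintro rfl
          rw [pow_zero] at hk
          have := Finite.one_lt_card (α := Subgroup.center G)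
          omega
        exact dvd_pow_self p hk0
      obtain ⟨z', hz'⟩ := exists_prime_orderOf_dvd_card' p hdvd
      obtain ⟨z, hzc, hz⟩ : ∃ z : G, z ∈ Subgroup.center G ∧ orderOf z = p :=
        ⟨z', z'.2, by rw [← hz', Subgroup.orderOf_coe]⟩
      have hmem : ∀ h : G, h ^ p = 1 → h ∈ Subgroup.zpowers z := by
        intro h hhp
        have hB := hm' _ (Cfsg.Agent.S0519.isMulCommutative_sup_zpowers z h
          (Subgroup.mem_center_iff.mp hzc h).symm)
        have hz_in : z ∈ Subgroup.zpowers z ⊔ Subgroup.zpowers h :=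
          le_sup_left (a := Subgroup.zpowers z) (Subgroup.mem_zpowers z)
        have hh_in : h ∈ Subgroup.zpowers z ⊔ Subgroup.zpowers h :=
          le_sup_right (a := Subgroup.zpowers z) (Subgroup.mem_zpowers h)
        have hcard : Nat.card ((Subgroup.zpowers z).subgroupOf
            (Subgroup.zpowers z ⊔ Subgroup.zpowers h)) = p := by
          rw [Nat.card_congr (Subgroup.subgroupOfEquivOfLe le_sup_left).toEquiv, Nat.card_zpowers,
            hz]
        have h1 := Cfsg.Agent.S0016.mem_of_pow_card_eq_one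
          ((Subgroup.zpowers z).subgroupOf (Subgroup.zpowers z ⊔ Subgroup.zpowers h))
          ⟨h, hh_in⟩ (by
            rw [hcard]
            exact Subtype.ext hhp)
        exact Subgroup.mem_subgroupOf.mp h1
      have huniq : ∀ H K : Subgroup G, Nat.card H = p → Nat.card K = p → H = K := by
        have hone : ∀ H : Subgroup G, Nat.card H = p → H = Subgroup.zpowers z := by
          intro H hH
          apply Subgroup.eq_of_le_of_card_ge
          · intro h hh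
            apply hmem
            have := pow_card_eq_one' (G := H) (x := ⟨h, hh⟩)
            rw [hH] at this
            exact congrArg Subtype.val this
          · rw [Nat.card_zpowers, hz, hH]
        intro H K hH hK
        rw [hone H hH, hone K hK]
      rcases Cfsg.Agent.S0016.result p hG huniq with h | ⟨-, n, hn'⟩
      · exact hnc h
      · exact hnq _ hn'
  obtain ⟨A, hAn, hAc, hAnc⟩ := hA
  exact exists_central_pair_of_normal_abelian p hG A
    (fun a ha b hb => congrArg Subtype.val (mul_comm' (⟨a, ha⟩ : A) ⟨b, hb⟩)) hAnc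

end GroupPart

section Final

theorem smul_ne_zero_of_irreducible {q : ℕ} [Fact q.Prime] {V : Type*} [AddCommGroup V]
    [Module (ZMod q) V] [Finite V] [Nontrivial V] {G : Type*} [Group G] [Finite G] (p : ℕ)
    [Fact p.Prime] (hG : IsPGroup p G) (ρ : G →* (V ≃ₗ[ZMod q] V)) (hρ : Function.Injective ρ)
    (hirr : ∀ W : Submodule (ZMod q) V, (∀ g : G, ∀ w ∈ W, ρ g w ∈ W) → W = ⊥ ∨ W = ⊤)
    (hnt : Nontrivial G) : ∀ v : V, p • v = 0 → v = 0 := by
  classical
  have hp : p.Prime := Fact.out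
  have hq : q.Prime := Fact.out
  by_cases hqp : q = p
  · exfalso
    subst hqp
    let _ : MulAction G V :=
      { smul := fun g v => ρ g v
        one_smul := act_one ρ
        mul_smul := fun g h v => act_mul ρ g h v }
    have hsm : ∀ (g : G) (v : V), g • v = ρ g v := fun _ _ => rfl
    have hdvd : q ∣ Nat.card V := by
      obtain ⟨v, hv⟩ := exists_ne (0 : V)
      have h1 : q • v = 0 := by
        rw [← Nat.cast_smul_eq_nsmul (ZMod q), ZMod.natCast_self, zero_smul]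
      have h2 : addOrderOf v = q := addOrderOf_eq_prime h1 hv
      rw [← h2]
      exact addOrderOf_dvd_natCard v
    have h0 : (0 : V) ∈ MulAction.fixedPoints G V := by
      intro g
      rw [hsm, map_zero]
    obtain ⟨b, hb, hb0⟩ := hG.exists_fixed_point_of_prime_dvd_card_of_fixed_point V hdvd h0
    have hW := hirr (⨅ g : G, fixSub ρ g) (by
      intro g v hv
      have := (Submodule.mem_iInf _).mp hv g
      rw [mem_fixSub] at this
      rw [this]
      exact hv)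
    have hbW : b ∈ ⨅ g : G, fixSub ρ g := by
      rw [Submodule.mem_iInf]
      intro g
      exact hb g
    rcases hW with hW | hW
    · rw [hW, Submodule.mem_bot] at hbW
      exact hb0 hbW.symm
    · obtain ⟨g, hg⟩ := exists_ne (1 : G)
      apply hg
      apply hρ
      ext v
      have hv : v ∈ ⨅ g : G, fixSub ρ g := by
        rw [hW]
        exact Submodule.mem_top
      rw [map_one]
      exact (Submodule.mem_iInf _).mp hv g
  · intro v hv
    rw [← Nat.cast_smul_eq_nsmul (ZMod q)] at hv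
    rcases smul_eq_zero.mp hv with h | h
    · exfalso
      rw [ZMod.natCast_eq_zero_iff] at h
      exact hqp ((Nat.prime_dvd_prime_iff_eq hq hp).mp h)
    · exact h

theorem imprimitive {q : ℕ} [Fact q.Prime] {V : Type*} [AddCommGroup V]
    [Module (ZMod q) V] [Finite V] [Nontrivial V] {G : Type*} [Group G] [Finite G] (p : ℕ)
    [Fact p.Prime] (hG : IsPGroup p G) (ρ : G →* (V ≃ₗ[ZMod q] V)) (hρ : Function.Injective ρ)
    (hirr : ∀ W : Submodule (ZMod q) V, (∀ g : G, ∀ w ∈ W, ρ g w ∈ W) → W = ⊥ ∨ W = ⊤)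
    (hnc : ¬ IsCyclic G)
    (hnq : ∀ n, ¬ Nonempty (G ≃* QuaternionGroup n))
    (hnd : ∀ n, ¬ Nonempty (G ≃* DihedralGroup n))
    (hnsd : ¬ Cfsg.IsQuasiDihedral G) :
    ∃ (H : Subgroup G) (W : Fin p → Submodule (ZMod q) V), H.index = p ∧
      iSup W = ⊤ ∧ iSupIndep W ∧
      (∀ h ∈ H, ∀ i, ∀ w ∈ W i, ρ h w ∈ W i) ∧
      (∀ i, ∃ h ∈ H, h ≠ 1 ∧ ∀ w ∈ W i, ρ h w = w) ∧
      ∀ g : G, g ∉ H → ∃ σ : Equiv.Perm (Fin p), orderOf σ = p ∧
        ∀ i, (W i).map (ρ g : V →ₗ[ZMod q] V) = W (σ i) := by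
  have hnt : Nontrivial G := by
    by_contra h
    rw [not_nontrivial_iff_subsingleton] at h
    exact hnc inferInstance
  have hpq := smul_ne_zero_of_irreducible p hG ρ hρ hirr hnt
  obtain ⟨z₀, w, h1, h2, h3, h4, h5, h6⟩ := exists_central_pair p hG hnc hnq hnd hnsd
  exact imprim_aux ρ hρ hirr hpq z₀ w h1 h2 h3 h4 h5 h6

end Final

end Cfsg.Agent.Lib.Helper66.Imprim
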